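import Cfsg.Agent.Leech2.MonsterQ

/-! Groups of Monster type: the conjugates of the central involution in the core. -/

set_option autoImplicit false
open Cfsg Cfsg.Agent.Golay Cfsg.Agent.Fischer

namespace Cfsg.Agent.Leech2

variable {G : Type*} [Group G] [Finite G]

theorem monster_setup {z : G} {Q : Subgroup (Subgroup.centralizer ({z} : Set G))} [Q.Normal]
    (hM : IsOfMonsterType z Q) : ∃ θ rep, MQ z (Q.map (Subgroup.centralizer ({z} : Set G)).subtype) θ rep ∧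
      ∃ g : G, g * z * g⁻¹ ∈ Q.map (Subgroup.centralizer ({z} : Set G)).subtype ∧ g * z * g⁻¹ ≠ z := by
  obtain ⟨⟨hz, hF, hQ, hcard, g, ⟨hq, hgQ⟩, hg⟩, e, ψ, hψ⟩ := hM
  obtain ⟨rep, h, -⟩ := exists_MQ hz hF hQ (by rw [hcard]) e ψ hψ
  exact ⟨_, rep, h, g, ⟨_, hgQ, rfl⟩, hg⟩

theorem mem_core_iff {z s : G} {Q : Subgroup (Subgroup.centralizer ({z} : Set G))}
    (h : ∃ hsc : s ∈ Subgroup.centralizer ({z} : Set G), (⟨s, hsc⟩ : Subgroup.centralizer ({z} : Set G)) ∈ Q) :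
    s ∈ Q.map (Subgroup.centralizer ({z} : Set G)).subtype := ⟨_, h.2, rfl⟩

theorem inter_card_eq {z s g : G} {Q : Subgroup (Subgroup.centralizer ({z} : Set G))} [Q.Normal]
    (hM : IsOfMonsterType z Q) (hs : s ∈ Q.map (Subgroup.centralizer ({z} : Set G)).subtype)
    (hs1 : s ≠ z) (hg : g * z * g⁻¹ = s) :
    Nat.card ↥((Q.map (Subgroup.centralizer ({z} : Set G)).subtype) ⊓
      (Q.map (Subgroup.centralizer ({z} : Set G)).subtype).map (MulAut.conj g).toMonoidHom) = 2 ^ 13 := by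
  obtain ⟨θ, rep, h, -⟩ := monster_setup hM
  obtain ⟨k, -, -, -, -, hA⟩ := h.frame hg hs hs1
  exact hA

theorem plus_type {z : G} {Q : Subgroup (Subgroup.centralizer ({z} : Set G))} [Q.Normal]
    (hM : IsOfMonsterType z Q) : ∃ E : Subgroup Q, IsElementaryAbelian 2 E ∧ Nat.card E = 2 ^ 13 := by
  obtain ⟨θ, rep, h, g, hg, hgz⟩ := monster_setup hM
  obtain ⟨k, -, -, -, -, hA⟩ := h.frame rfl hg hgz
  obtain ⟨hsq, hcomm⟩ := h.inter_props (g := g) rfl hgz
  set f : ↥Q →* G := (Subgroup.centralizer ({z} : Set G)).subtype.comp Q.subtype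
  have hf : Function.Injective f := fun a b e => Subtype.ext (Subtype.ext e)
  set A := Q.map (Subgroup.centralizer ({z} : Set G)).subtype ⊓
    LocalEven.cj g (Q.map (Subgroup.centralizer ({z} : Set G)).subtype)
  refine ⟨A.comap f, ⟨⟨⟨fun a b => Subtype.ext (hf ?_)⟩⟩, fun a ha => hf ?_⟩, ?_⟩
  · simp only [Subgroup.coe_mul, map_mul]
    exact hcomm _ a.2 _ b.2
  · rw [map_pow, map_one, pow_two]
    exact hsq _ ha
  · rw [← hA, ← Subgroup.card_map_of_injective (K := A.comap f) hf, Subgroup.map_comap_eq_self]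
    rintro _ ⟨⟨q, hq, rfl⟩, -⟩
    exact ⟨⟨q, hq⟩, rfl⟩

theorem conj_central {z s t : G} {Q : Subgroup (Subgroup.centralizer ({z} : Set G))} [Q.Normal]
    (hM : IsOfMonsterType z Q) (hs : s ∈ Q.map (Subgroup.centralizer ({z} : Set G)).subtype)
    (ht : t ∈ Q.map (Subgroup.centralizer ({z} : Set G)).subtype) (hsz : IsConj z s) (htz : IsConj z t)
    (hs1 : s ≠ z) (ht1 : t ≠ z) : ∃ h ∈ Subgroup.centralizer ({z} : Set G), h * s * h⁻¹ = t := by
  obtain ⟨θ, rep, h, -⟩ := monster_setup hM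
  obtain ⟨a, ha⟩ := isConj_iff.1 hsz
  obtain ⟨b, hb⟩ := isConj_iff.1 htz
  obtain ⟨v, hv, hvs⟩ := h.long_rep ha hs hs1
  obtain ⟨w, hw, hwt⟩ := h.long_rep hb ht ht1
  exact h.conj_of_norm hvs hwt (h.conjCore hb).ne ht1 (Or.inr rfl) hv hw

theorem conj_noncentral {z s t : G} {Q : Subgroup (Subgroup.centralizer ({z} : Set G))} [Q.Normal]
    (hM : IsOfMonsterType z Q) (hs : s ∈ Q.map (Subgroup.centralizer ({z} : Set G)).subtype)
    (ht : t ∈ Q.map (Subgroup.centralizer ({z} : Set G)).subtype) (hs2 : orderOf s = 2) (ht2 : orderOf t = 2)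
    (hsz : ¬ IsConj z s) (htz : ¬ IsConj z t) :
    ∃ h ∈ Subgroup.centralizer ({z} : Set G), h * s * h⁻¹ = t := by
  obtain ⟨θ, rep, h, g, hg, hgz⟩ := monster_setup hM
  obtain ⟨v0, hv0, hrep0⟩ := h.long_rep rfl hg hgz
  have short : ∀ y ∈ Q.map (Subgroup.centralizer ({z} : Set G)).subtype, orderOf y = 2 → ¬ IsConj z y →
      y ≠ 1 ∧ y ≠ z ∧ ∃ v : ↥leechLattice, sqNorm v.1 = 32 ∧ rep v y := by
    intro y hy hy2 hyz
    have h1 : y ≠ 1 := fun e => by simp [e] at hy2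
    have hz : y ≠ z := fun e => hyz (e ▸ IsConj.refl z)
    have hyy : y * y = 1 := by rw [← pow_two, ← hy2, pow_orderOf_eq_one]
    obtain ⟨v, hv | hv, hvy⟩ := h.involution_rep hy hyy h1 hz
    · exact ⟨h1, hz, v, hv, hvy⟩
    · obtain ⟨c, -, hc⟩ := h.conj_of_norm hrep0 hvy h1 hz (Or.inr rfl) hv0 hv
      exact absurd ((isConj_iff.2 ⟨g, rfl⟩).trans (isConj_iff.2 ⟨c, hc⟩)) hyz
  obtain ⟨-, -, v, hv, hvs⟩ := short s hs hs2 hsz
  obtain ⟨ht1, htz', w, hw, hwt⟩ := short t ht ht2 htz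
  exact h.conj_of_norm hvs hwt ht1 htz' (Or.inl rfl) hv hw

theorem central_iff_long {z : G} {Q : Subgroup (Subgroup.centralizer ({z} : Set G))} [Q.Normal]
    (hM : IsOfMonsterType z Q) (e : (Subgroup.centralizer ({z} : Set G)) ⧸ Q ≃* Spor.Co1)
    (ψ : leechLattice → Q ⧸ Subgroup.center Q) (hψ : IsLeechModTwoIso Q e ψ) (x : Q) :
    (IsConj z ((x : Subgroup.centralizer ({z} : Set G)) : G) ∧ ((x : Subgroup.centralizer ({z} : Set G)) : G) ≠ z) ↔
      ∃ v : leechLattice, sqNorm (v : GolayPt → ℤ) = 64 ∧ ψ v = QuotientGroup.mk x := by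
  obtain ⟨⟨hz, hF, hQ, hcard, g, ⟨hq, hgQ⟩, hg⟩, -⟩ := hM
  obtain ⟨rep, h, hspec⟩ := exists_MQ hz hF hQ (by rw [hcard]) e ψ hψ
  have hxE : ((x : Subgroup.centralizer ({z} : Set G)) : G) ∈
      Q.map (Subgroup.centralizer ({z} : Set G)).subtype := ⟨_, x.2, rfl⟩
  constructor
  · rintro ⟨hc, hne⟩
    obtain ⟨a, ha⟩ := isConj_iff.1 hc
    obtain ⟨v, hv, hvx⟩ := h.long_rep ha hxE hne
    exact ⟨v, hv, (hspec v x).1 hvx⟩
  · rintro ⟨v, hv, hvx⟩
    have hrep := (hspec v x).2 hvx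
    have hnd : ¬ ∃ w, v = w + w := by
      rintro ⟨w, rfl⟩
      rw [AddSubgroup.coe_add, Leech2.sqNorm_add, dotInt_self_eq] at hv
      rcases eq_or_ne w.1 0 with e | e
      · rw [e] at hv; simp [sqNorm] at hv
      · have := sqNorm_ge w.2 e; omega
    have hx1 : ((x : Subgroup.centralizer ({z} : Set G)) : G) ≠ 1 := fun e => hnd ((h.rep_one v).1 (e ▸ hrep))
    have hxz : ((x : Subgroup.centralizer ({z} : Set G)) : G) ≠ z := fun e => by
      refine hnd ((h.rep_one v).1 ((h.rep_eq (e ▸ hrep)).2 (Or.inr ?_)))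
      rw [h.core.sq]
    obtain ⟨v0, hv0, hrep0⟩ := h.long_rep (g := g) rfl (show g * z * g⁻¹ ∈ Q.map (Subgroup.centralizer ({z} : Set G)).subtype from ⟨_, hgQ, rfl⟩) hg
    obtain ⟨c, -, hc⟩ := h.conj_of_norm hrep0 hrep hx1 hxz (Or.inr rfl) hv0 hv
    exact ⟨(isConj_iff.2 ⟨g, rfl⟩).trans (isConj_iff.2 ⟨c, hc⟩), hxz⟩

/-- The coordinate permutations. -/
def permHom : ↥M24 →* Spor.Co1 :=
  MonoidHom.mk' (fun σ => QuotientGroup.mk (monoEl σ.1 σ.2 ∅ empty_mem_supports)) fun a b => by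
    rw [← QuotientGroup.mk_mul]
    refine congrArg _ (co0_ext fun i => Subtype.ext (funext fun p => ?_))
    simp only [mul_smul, monoEl_apply, signedPerm_eq, sgnOf, Finset.notMem_empty, if_false, one_mul]
    rfl

theorem perm_of_sign {σ : Equiv.Perm GolayPt} {hσ : σ ∈ M24} {c : Finset GolayPt}
    {hc : c ∈ supports (golayCode : Set (GolayPt → ZMod 2))}
    (h : (QuotientGroup.mk (monoEl σ hσ ∅ empty_mem_supports) : Spor.Co1) =
      QuotientGroup.mk (monoEl 1 (one_mem _) c hc)) : σ = 1 := by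
  have e := mk_eq_one.1 (show (QuotientGroup.mk ((monoEl 1 (one_mem _) c hc)⁻¹ *
      monoEl σ hσ ∅ empty_mem_supports) : Spor.Co1) = 1 by
    rw [QuotientGroup.mk_mul, QuotientGroup.mk_inv, inv_mul_eq_one]; exact h.symm)
  rcases e with r | r
  · exact (monoEl_injective (inv_mul_eq_one.1 r).symm).1
  · rw [inv_mul_eq_iff_eq_mul, negEl_eq] at r
    have e2 : monoEl 1 (one_mem _) c hc * monoEl 1 (one_mem _) Finset.univ
        (by simpa using compl_mem_supports empty_mem_supports) =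
        monoEl 1 (one_mem _) cᶜ (compl_mem_supports hc) := co0_ext fun i => Subtype.ext (funext fun p => by
      simp only [mul_smul, monoEl_apply, signedPerm_eq, sgnOf, Finset.mem_compl, Finset.mem_univ, if_true]
      by_cases h1 : p ∈ c <;> simp [h1]
      all_goals rfl)
    exact (monoEl_injective (r.trans e2)).1

theorem frame_image :
    signImage ≤ frameStab.map (QuotientGroup.mk' _) ∧
    (∀ x ∈ frameStab.map (QuotientGroup.mk' _), ∀ y ∈ signImage, x * y * x⁻¹ ∈ signImage) ∧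
    IsElementaryAbelian 2 signImage ∧ permHom.range ≤ frameStab.map (QuotientGroup.mk' _) ∧
    signImage ⊓ permHom.range = ⊥ ∧ signImage ⊔ permHom.range = frameStab.map (QuotientGroup.mk' _) ∧
    Nonempty (↥permHom.range ≃* ↥M24) := by
  have hsq : ∀ y ∈ signImage, y * y = 1 := by
    rintro _ ⟨c, hc, rfl⟩
    rw [← QuotientGroup.mk_mul, show monoEl 1 (one_mem _) c hc * monoEl 1 (one_mem _) c hc = 1 from
      co0_ext fun i => Subtype.ext (funext fun p => by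
        simp only [one_smul, mul_smul, monoEl_apply, signedPerm_eq]
        rw [show (1 : Equiv.Perm GolayPt).symm p = p from rfl, ← mul_assoc, sgnOf_sq, one_mul]
        rfl)]
    rfl
  have hle : signImage ≤ frameStab.map (QuotientGroup.mk' _) := by
    rintro _ ⟨c, hc, rfl⟩
    exact ⟨_, mem_frameStab.2 ⟨1, one_mem _, c, hc, rfl⟩, rfl⟩
  have hdec : ∀ (σ : Equiv.Perm GolayPt) (hσ : σ ∈ M24) (c : Finset GolayPt)
      (hc : c ∈ supports (golayCode : Set (GolayPt → ZMod 2))),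
      (QuotientGroup.mk (monoEl σ hσ c hc) : Spor.Co1) =
        QuotientGroup.mk (monoEl 1 (one_mem _) c hc) * permHom ⟨σ, hσ⟩ := by
    intro σ hσ c hc
    show _ = _ * (QuotientGroup.mk (monoEl σ hσ ∅ empty_mem_supports) : Spor.Co1)
    rw [← QuotientGroup.mk_mul]
    refine congrArg _ (co0_ext fun i => Subtype.ext (funext fun p => ?_))
    simp only [mul_smul, monoEl_apply, signedPerm_eq, sgnOf, Finset.notMem_empty, if_false, one_mul]
    rfl
  have hperm : permHom.range ≤ frameStab.map (QuotientGroup.mk' _) := by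
    rintro _ ⟨σ, rfl⟩
    exact ⟨_, mem_frameStab.2 ⟨σ.1, σ.2, ∅, empty_mem_supports, rfl⟩, rfl⟩
  have hinj : Function.Injective permHom := by
    rw [injective_iff_map_eq_one]
    intro σ h
    refine Subtype.ext (perm_of_sign (hσ := σ.2) (c := ∅) (hc := empty_mem_supports) ?_)
    refine h.trans ?_
    symm
    rw [show monoEl 1 (one_mem _) ∅ empty_mem_supports = 1 from co0_ext fun i => Subtype.ext (funext fun p => by
      rw [monoEl_apply, signedPerm_eq, one_smul]; simp [sgnOf]; rfl)]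
    rfl
  refine ⟨hle, ?_, ⟨⟨⟨fun a b => Subtype.ext ?_⟩⟩, fun a ha => by rw [pow_two]; exact hsq a ha⟩, hperm, ?_, ?_,
    ⟨(MonoidHom.ofInjective hinj).symm⟩⟩
  · rintro _ ⟨m, hm, rfl⟩ y hy
    obtain ⟨d, hd, rfl⟩ := hy
    obtain ⟨π, -, hπ⟩ := exists_frameHom
    obtain ⟨τ, hτ, e, he, hm'⟩ := mem_frameStab.1 hm
    obtain ⟨σ, hσ, c, hc, heq⟩ := mem_frameStab.1 (mul_mem (mul_mem hm
      (mem_frameStab.2 ⟨1, one_mem _, d, hd, rfl⟩)) (inv_mem hm))
    have h1 : σ = 1 := by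
      have e1 := hπ (⟨m, hm⟩ * ⟨_, mem_frameStab.2 ⟨1, one_mem _, d, hd, rfl⟩⟩ * ⟨m, hm⟩⁻¹) σ hσ c hc heq
      rw [map_mul, map_mul, map_inv, hπ ⟨_, mem_frameStab.2 ⟨1, one_mem _, d, hd, rfl⟩⟩ 1 (one_mem _) d hd rfl,
        mul_one, mul_inv_cancel] at e1
      exact e1.symm
    subst h1
    exact ⟨c, hc, congrArg (QuotientGroup.mk' (Subgroup.center ↥Co0)) heq⟩
  · show a.1 * b.1 = b.1 * a.1
    calc a.1 * b.1 = (a.1 * b.1)⁻¹ := (inv_eq_of_mul_eq_one_right (hsq _ (mul_mem a.2 b.2))).symm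
      _ = b.1 * a.1 := by
        rw [mul_inv_rev, inv_eq_of_mul_eq_one_right (hsq _ a.2), inv_eq_of_mul_eq_one_right (hsq _ b.2)]
  · rw [Subgroup.eq_bot_iff_forall]
    rintro q ⟨⟨c, hc, h1⟩, σ, rfl⟩
    rw [show σ = 1 from Subtype.ext (perm_of_sign (hσ := σ.2) h1), map_one]
  · refine le_antisymm (sup_le hle hperm) ?_
    rintro _ ⟨m, hm, rfl⟩
    obtain ⟨σ, hσ, c, hc, rfl⟩ := mem_frameStab.1 hm
    show (QuotientGroup.mk (monoEl σ hσ c hc) : Spor.Co1) ∈ _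
    rw [hdec]
    exact Subgroup.mul_mem_sup ⟨c, hc, rfl⟩ ⟨_, rfl⟩

theorem frame_quotient {z s g : G} {Q : Subgroup (Subgroup.centralizer ({z} : Set G))} [Q.Normal]
    (hM : IsOfMonsterType z Q) (hs : s ∈ Q.map (Subgroup.centralizer ({z} : Set G)).subtype)
    (hs1 : s ≠ z) (hg : g * z * g⁻¹ = s)
    (X E : Subgroup ((Subgroup.centralizer ({z} : Set G)) ⧸ Q))
    (hX : X = ((Subgroup.centralizer ({z} : Set G) ⊓ Subgroup.centralizer ({s} : Set G)).subgroupOf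
      (Subgroup.centralizer ({z} : Set G))).map (QuotientGroup.mk' Q))
    (hE : E = (((Q.map (Subgroup.centralizer ({z} : Set G)).subtype).map (MulAut.conj g).toMonoidHom ⊓
      Subgroup.centralizer ({z} : Set G)).subgroupOf (Subgroup.centralizer ({z} : Set G))).map (QuotientGroup.mk' Q)) :
    E ≤ X ∧ (∀ x ∈ X, ∀ y ∈ E, x * y * x⁻¹ ∈ E) ∧ IsElementaryAbelian 2 E ∧ Nat.card E = 2 ^ 11 ∧
      ∃ K : Subgroup ((Subgroup.centralizer ({z} : Set G)) ⧸ Q),
        K ≤ X ∧ E ⊓ K = ⊥ ∧ E ⊔ K = X ∧ Nonempty (K ≃* M24) := by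
  obtain ⟨⟨hz, hF, hQ, hcard, -⟩, e, ψ, hψ⟩ := hM
  obtain ⟨rep, h, -⟩ := exists_MQ hz hF hQ (by rw [hcard]) e ψ hψ
  obtain ⟨k, -, hsee, hlift, hP, -⟩ := h.frame hg hs hs1
  set f : Spor.Co1 ≃* (Subgroup.centralizer ({z} : Set G)) ⧸ Q :=
    (MulAut.conj (QuotientGroup.mk k : Spor.Co1)).trans e.symm with hf
  have hback : ∀ (S : Subgroup ((Subgroup.centralizer ({z} : Set G)) ⧸ Q)) (T : Subgroup Spor.Co1),
      S.map e.toMonoidHom = T.map (MulAut.conj (QuotientGroup.mk k : Spor.Co1)).toMonoidHom →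
      S = T.map f.toMonoidHom := by
    intro S T hST
    rw [show f.toMonoidHom = e.symm.toMonoidHom.comp (MulAut.conj (QuotientGroup.mk k : Spor.Co1)).toMonoidHom from rfl,
      ← Subgroup.map_map, ← hST, Subgroup.map_map]
    refine le_antisymm (fun a ha => ⟨a, ha, e.symm_apply_apply a⟩) ?_
    rintro _ ⟨a, ha, rfl⟩
    simpa using ha
  have hX' : X = (frameStab.map (QuotientGroup.mk' _)).map f.toMonoidHom := by
    refine hback _ _ ?_
    rw [hX, Subgroup.map_map]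
    refine le_antisymm ?_ ?_
    · rintro _ ⟨c, hc, rfl⟩
      exact hsee c (mul_inv_eq_iff_eq_mul.2 (mem_cent_singleton.1 hc.2))
    · rintro _ ⟨_, ⟨m, hm, rfl⟩, rfl⟩
      obtain ⟨c, hc, hce⟩ := hlift m hm
      exact ⟨c, ⟨c.2, mem_cent_singleton.2 (mul_inv_eq_iff_eq_mul.1 hc)⟩, hce⟩
  have hE' : E = signImage.map f.toMonoidHom := by
    refine hback _ _ ?_
    rw [hE, Subgroup.map_map]
    exact hP
  obtain ⟨h1, h2, ⟨h3, h3'⟩, h4, h5, h6, ⟨h7⟩⟩ := frame_image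
  have hfi : Function.Injective f.toMonoidHom := f.injective
  subst hX' hE'
  refine ⟨Subgroup.map_mono h1, ?_, ⟨?_, ?_⟩, ?_, permHom.range.map f.toMonoidHom, Subgroup.map_mono h4, ?_, ?_,
    ⟨(Subgroup.equivMapOfInjective _ _ hfi).symm.trans h7⟩⟩
  · rintro _ ⟨a, ha, rfl⟩ _ ⟨b, hb, rfl⟩
    exact ⟨_, h2 a ha b hb, by simp [map_mul]⟩
  · refine ⟨⟨?_⟩⟩
    rintro ⟨_, a, ha, rfl⟩ ⟨_, b, hb, rfl⟩
    refine Subtype.ext ?_
    show f.toMonoidHom a * f.toMonoidHom b = f.toMonoidHom b * f.toMonoidHom a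
    rw [← map_mul, show a * b = b * a from congrArg Subtype.val (h3.1.1 ⟨a, ha⟩ ⟨b, hb⟩), map_mul]
  · rintro _ ⟨a, ha, rfl⟩
    rw [← map_pow, h3' a ha, map_one]
  · rw [Subgroup.card_map_of_injective hfi, signImage_card]
  · rw [← Subgroup.map_inf _ _ _ hfi, h5, Subgroup.map_bot]
  · rw [← Subgroup.map_sup, h6]

end Cfsg.Agent.Leech2
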