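import Cfsg.Agent.Leech2.ShortStab
import Cfsg.Agent.Leech2.MonsterMain
import Cfsg.Agent.FGS3.PGroupFrattini

/-! The centralizer of a noncentral involution of the core is of Baby Monster type. -/

set_option autoImplicit false
open Cfsg Cfsg.Agent.Golay Cfsg.Agent.Fischer
open scoped commutatorElement

namespace Cfsg.Agent.Leech2

theorem leechU_eq : Spor.leechU = uL := by
  refine Subtype.ext (funext ?_)
  decide +kernel

/-- An element of `Co2` as an automorphism of the lattice. -/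
def co2El (g : ↥Spor.Co2) : ↥Co0 := ⟨g.1, g.2.1⟩

theorem co2El_fix (g : ↥Spor.Co2) : co2El g • uL = uL := by
  rw [← leechU_eq]; exact g.2.2

/-- The two descriptions of the stabilizer agree. -/
def co2Equiv : ↥Spor.Co2 ≃* ↥stabU where
  toFun g := ⟨co2El g, co2El_fix g⟩
  invFun g := ⟨g.1.1, g.1.2, show g.1 • Spor.leechU = Spor.leechU by rw [leechU_eq]; exact g.2⟩
  left_inv _ := rfl
  right_inv _ := rfl
  map_mul' _ _ := rfl

theorem no_normal_two_co2 (P : Subgroup ↥Spor.Co2) [hn : P.Normal] (hP : IsPGroup 2 ↥P) : P = ⊥ := by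
  haveI : (P.map co2Equiv.toMonoidHom).Normal := hn.map _ co2Equiv.surjective
  have h := no_normal_two (P.map co2Equiv.toMonoidHom) (hP.map _)
  exact (Subgroup.map_eq_bot_iff_of_injective P co2Equiv.injective).1 h

theorem short_class {a b : ↥leechLattice} (ha : sqNorm a.1 = 32) (hb : sqNorm b.1 = 32) {u : ↥leechLattice}
    (h : b = a + (u + u)) : b = a ∨ b = -a := by
  by_contra hn
  push_neg at hn
  have hu : u.1 ≠ 0 := fun e => hn.1 (by rw [h, show u = 0 from Subtype.ext e]; simp)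
  have hv : (u + a).1 ≠ 0 := fun e => hn.2 (by
    have : u = -a := eq_neg_of_add_eq_zero_left (Subtype.ext e)
    rw [h, this]; abel)
  have h1 := sqNorm_ge u.2 hu
  have h2 := sqNorm_ge (u + a).2 hv
  have hbn : sqNorm b.1 = sqNorm a.1 + 4 * sqNorm u.1 + 4 * dotInt a.1 u.1 := by
    rw [h]
    simp only [AddSubgroup.coe_add, sqNorm, dotInt, Finset.mul_sum, ← Finset.sum_add_distrib]
    exact Finset.sum_congr rfl fun p _ => by simp only [Pi.add_apply]; ring
  simp only [AddSubgroup.coe_add, Leech2.sqNorm_add] at h2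
  rw [dot_comm] at h2
  rw [ha, hb] at hbn
  rw [ha] at h2
  omega

theorem short_long_ne {a b : ↥leechLattice} (ha : sqNorm a.1 = 32) (hb : sqNorm b.1 = 64) (u : ↥leechLattice) :
    a ≠ b + (u + u) := by
  intro h
  have hu : u.1 ≠ 0 := fun e => by
    rw [h, show u = 0 from Subtype.ext e] at ha
    simp at ha
    omega
  have hv : (u + b).1 ≠ 0 := fun e => by
    have : u = -b := eq_neg_of_add_eq_zero_left (Subtype.ext e)
    rw [h, this, show b + (-b + -b) = -b by abel, AddSubgroup.coe_neg, sqNorm_neg'] at ha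
    omega
  have h1 := sqNorm_ge u.2 hu
  have h2 := sqNorm_ge (u + b).2 hv
  have han : sqNorm a.1 = sqNorm b.1 + 4 * sqNorm u.1 + 4 * dotInt b.1 u.1 := by
    rw [h]
    simp only [AddSubgroup.coe_add, sqNorm, dotInt, Finset.mul_sum, ← Finset.sum_add_distrib]
    exact Finset.sum_congr rfl fun p _ => by simp only [Pi.add_apply]; ring
  simp only [AddSubgroup.coe_add, Leech2.sqNorm_add] at h2
  rw [dot_comm] at h2
  rw [ha, hb] at han
  rw [hb] at h2
  omega

variable {G : Type*} [Group G] [Finite G]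

namespace MQ

variable {z : G} {E : Subgroup G} {θ : ↥(Subgroup.centralizer ({z} : Set G)) →* Spor.Co1}
  {rep : ↥leechLattice → G → Prop}

theorem comm_iff_dot (h : MQ z E θ rep) {t q : G} {a b : ↥leechLattice} (ha : rep a t) (hb : rep b q)
    (htt : t * t = 1) : t * q = q * t ↔ (16 : ℤ) ∣ dotInt a.1 b.1 := by
  have htE := h.rep_mem ha
  have hqE := h.rep_mem hb
  have h1 := (stdForm_eq_zero_iff a.2).1 ((h.sq_iff ha).1 htt)
  have h2 := sqNorm_dvd b.2
  have hq : q * q = 1 ↔ (32 : ℤ) ∣ sqNorm b.1 := (h.sq_iff hb).trans (stdForm_eq_zero_iff b.2)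
  have htq : t * q * (t * q) = 1 ↔ (32 : ℤ) ∣ sqNorm a.1 + sqNorm b.1 + 2 * dotInt a.1 b.1 := by
    refine (h.sq_iff (h.rep_mul ha hb)).trans ((stdForm_eq_zero_iff (a + b).2).trans ?_)
    rw [AddSubgroup.coe_add, Leech2.sqNorm_add]
  have h3 := dot_dvd a.2 b.2
  constructor
  · intro hc
    have e : t * q * (t * q) = q * q := by
      calc t * q * (t * q) = t * (q * t) * q := by group
        _ = (t * t) * (q * q) := by rw [← hc]; group
        _ = _ := by rw [htt, one_mul]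
    rw [e, hq] at htq
    by_cases hd : (32 : ℤ) ∣ sqNorm b.1
    · have := htq.1 hd; omega
    · have : ¬ (32 : ℤ) ∣ sqNorm a.1 + sqNorm b.1 + 2 * dotInt a.1 b.1 := fun x => hd (htq.2 x)
      omega
  · intro hd
    have e : t * q * (t * q) = q * q := by
      rcases h.core.square _ (mul_mem htE hqE) with e1 | e1 <;> rcases h.core.square _ hqE with e2 | e2
      · rw [e1, e2]
      · exfalso
        have := htq.1 e1
        have : ¬ (32 : ℤ) ∣ sqNorm b.1 := fun x => h.core.ne (e2.symm.trans (hq.2 x))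
        omega
      · exfalso
        have := hq.1 e2
        have : ¬ (32 : ℤ) ∣ sqNorm a.1 + sqNorm b.1 + 2 * dotInt a.1 b.1 :=
          fun x => h.core.ne (e1.symm.trans (htq.2 x))
        omega
      · rw [e1, e2]
    have e' : t * q * t = q := mul_right_cancel (by rw [← e]; group)
    calc t * q = t * q * (t * t) := by rw [htt, mul_one]
      _ = t * q * t * t := by group
      _ = q * t := by rw [e']

theorem conj_eq_mul (h : MQ z E θ rep) {y t : G} (hy : y ∈ E) (ht : t ∈ E) (hne : y * t ≠ t * y) :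
    y * t = z * (t * y) := by
  have e := (h.core.brack y hy t ht).resolve_left fun e => hne (commutatorElement_eq_one_iff_mul_comm.1 e)
  rw [← e, commutatorElement_def]; group

theorem cent_core_card (h : MQ z E θ rep) {t : G} (ht : t ∈ E) (h1 : t ≠ 1) (hz : t ≠ z) :
    Nat.card ↥(E ⊓ Subgroup.centralizer ({t} : Set G)) = 2 ^ 24 := by
  classical
  set T := E ⊓ Subgroup.centralizer ({t} : Set G) with hT
  obtain ⟨q0, hq0, hq0t⟩ : ∃ q ∈ E, q * t ≠ t * q := by
    by_contra hn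
    push_neg at hn
    rcases h.core.center t ht hn with e | e
    exacts [h1 e, hz e]
  have hfix : ∀ q ∈ E, q * t ≠ t * q → q0⁻¹ * q ∈ T := fun q hq hne => by
    refine Subgroup.mem_inf.2 ⟨mul_mem (inv_mem hq0) hq, mem_cent_singleton.2 ?_⟩
    calc q0⁻¹ * q * t = q0⁻¹ * (z * (t * q)) := by rw [mul_assoc, h.conj_eq_mul hq ht hne]
      _ = q0⁻¹ * (z * (t * q0)) * (q0⁻¹ * q) := by group
      _ = q0⁻¹ * (q0 * t) * (q0⁻¹ * q) := by rw [h.conj_eq_mul hq0 ht hq0t]
      _ = _ := by group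
  let Φ : ↥E → ↥T × Fin 2 := fun q =>
    if hc : (q : G) * t = t * q then (⟨q, Subgroup.mem_inf.2 ⟨q.2, mem_cent_singleton.2 hc⟩⟩, 0)
    else (⟨q0⁻¹ * q, hfix q q.2 hc⟩, 1)
  have hinj : Function.Injective Φ := by
    intro a b hab
    simp only [Φ] at hab
    split_ifs at hab with ha hb hb
    · exact Subtype.ext (congrArg (fun p : ↥T × Fin 2 => (p.1 : G)) hab)
    · exact absurd (congrArg Prod.snd hab) (by simp)
    · exact absurd (congrArg Prod.snd hab) (by simp)
    · exact Subtype.ext (mul_left_cancel (congrArg (fun p : ↥T × Fin 2 => (p.1 : G)) hab))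
  have hge := Nat.card_le_card_of_injective Φ hinj
  rw [Nat.card_prod, Nat.card_fin, h.card] at hge
  obtain ⟨j, hj, hTj⟩ := (Nat.dvd_prime_pow Nat.prime_two).1
    (h.card ▸ Subgroup.card_dvd_of_le (inf_le_left : T ≤ E))
  rcases Nat.lt_or_ge j 24 with hlt | hge'
  · have := Nat.pow_le_pow_right (show 0 < 2 by norm_num) (show j ≤ 23 by omega)
    rw [hTj] at hge
    norm_num at this hge
    omega
  rcases (show j = 24 ∨ j = 25 by omega) with rfl | rfl
  · exact hTj
  · have hTE : T = E := Subgroup.eq_of_le_of_card_ge inf_le_left (by rw [h.card, hTj])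
    exact absurd (mem_cent_singleton.1 (Subgroup.mem_inf.1 (hTE ▸ hq0 : q0 ∈ T)).2) hq0t

theorem exists_short_in_inter (h : MQ z E θ rep) {x g : G} (hg : g * z * g⁻¹ = x) (hx : x ∈ E) (hxz : x ≠ z) :
    ∃ j ∈ E ⊓ LocalEven.cj g E, ∃ v : ↥leechLattice, sqNorm v.1 = 32 ∧ rep v j := by
  classical
  obtain ⟨k, hrep, -, -, hP, -⟩ := h.frame hg hx hxz
  have hF := h.conjCore hg
  obtain ⟨c, hc, hcS⟩ := code_on_oct0 {pt 2, pt 4} (by decide +kernel) (by decide +kernel) (by decide +kernel)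
  have hmem : MulAut.conj (QuotientGroup.mk k : Spor.Co1) (QuotientGroup.mk (monoEl 1 (one_mem _) c hc)) ∈
      signImage.map (MulAut.conj (QuotientGroup.mk k : Spor.Co1)).toMonoidHom := ⟨_, ⟨c, hc, rfl⟩, rfl⟩
  rw [← hP] at hmem
  obtain ⟨r, hr, hθ⟩ := hmem
  have hθ' : θ r = QuotientGroup.mk (k * monoEl 1 (one_mem _) c hc * k⁻¹) := by
    rw [hθ, MulAut.conj_apply, QuotientGroup.mk_mul, QuotientGroup.mk_mul, QuotientGroup.mk_inv]
  obtain ⟨q, hq⟩ := h.rep_ex (k • v0)
  have hqq : q * q = 1 := (h.sq_iff hq).2 (by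
    rw [stdForm_eq_zero_iff (Subtype.prop _), co0_norm]; decide +kernel)
  have hqx : x * q = q * x := (h.comm_iff_dot hrep hq hF.sq).2 (by rw [co0_dot]; decide +kernel)
  have hact := h.act r _ hθ' hq
  rw [mul_smul, mul_smul, inv_smul_smul] at hact
  refine ⟨(r : G) * q * (r : G)⁻¹ * q, ⟨mul_mem (h.core.norm r (mem_cent_singleton.1 r.2) q (h.rep_mem hq))
    (h.rep_mem hq), ?_⟩, k • (monoEl 1 (one_mem _) c hc • v0 + -v0), ?_, ?_⟩
  · rw [show (r : G) * q * (r : G)⁻¹ * q = (r : G) * (q * (r : G)⁻¹ * q⁻¹) by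
      rw [show q⁻¹ = q from inv_eq_of_mul_eq_one_right hqq]; group]
    exact mul_mem hr.1 (hF.norm q hqx.symm _ (inv_mem hr.1))
  · rw [co0_norm]
    have e : ((monoEl 1 (one_mem _) c hc • v0 + -v0 : ↥leechLattice) : GolayPt → ℤ) = sv (-4) {pt 2, pt 4} := by
      funext p
      rw [AddSubgroup.coe_add, Pi.add_apply, monoEl_apply, signedPerm_eq, AddSubgroup.coe_neg, Pi.neg_apply]
      show sgnOf c p * sv 2 oct0 p + -(sv 2 oct0 p) = _
      by_cases hp : p ∈ oct0
      · by_cases hpc : p ∈ c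
        · have : p ∈ ({pt 2, pt 4} : Finset GolayPt) := hcS ▸ Finset.mem_inter.2 ⟨hpc, hp⟩
          simp only [sgnOf, sv, hp, hpc, this, if_true]; norm_num
        · have : p ∉ ({pt 2, pt 4} : Finset GolayPt) := fun h => hpc (Finset.mem_inter.1 (hcS.symm ▸ h)).1
          simp only [sgnOf, sv, hp, hpc, this, if_true, if_false]; norm_num
      · have : p ∉ ({pt 2, pt 4} : Finset GolayPt) := fun h => hp (Finset.mem_inter.1 (hcS.symm ▸ h)).2
        simp only [sv, hp, this, if_false]; norm_num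
    rw [e]; decide +kernel
  · have h2 := h.rep_dbl (w := -(k • v0)) (h.rep_mul hact hq)
    rwa [show k • monoEl 1 (one_mem _) c hc • v0 + k • v0 + (-(k • v0) + -(k • v0)) =
      k • (monoEl 1 (one_mem _) c hc • v0 + -v0) by rw [co0_add, co0_neg]; abel] at h2

end MQ

theorem baby_type {z t : G} {Q : Subgroup (Subgroup.centralizer ({z} : Set G))} [Q.Normal]
    (hM : IsOfMonsterType z Q) (htE : t ∈ Q.map (Subgroup.centralizer ({z} : Set G)).subtype)
    (ht2 : orderOf t = 2) (htz : ¬ IsConj z t)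
    [((Subgroup.zpowers t).subgroupOf (Subgroup.centralizer ({t} : Set G))).Normal] :
    IsOfBabyMonsterType (↥(Subgroup.centralizer ({t} : Set G)) ⧸
      (Subgroup.zpowers t).subgroupOf (Subgroup.centralizer ({t} : Set G))) := by
  classical
  haveI := Fact.mk Nat.prime_two
  obtain ⟨θ, rep, h, g₁, hg₁, hg₁z⟩ := monster_setup hM
  generalize Q.map (Subgroup.centralizer ({z} : Set G)).subtype = E at h hg₁ htE
  have htt : t * t = 1 := by rw [← pow_two, ← ht2, pow_orderOf_eq_one]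
  have ht1 : t ≠ 1 := fun e => by simp [e] at ht2
  have htz' : t ≠ z := fun e => htz (e ▸ IsConj.refl z)
  obtain ⟨q₁, hq₁, hq₁t⟩ := h.exists_noncomm htE ht1 htz'
  have htzc : ¬ IsConj z (t * z) := fun e => htz (e.trans (isConj_iff.2 ⟨q₁, hq₁t⟩).symm)
  -- the short representative
  obtain ⟨v₁, hv₁, hrep₁⟩ := h.long_rep rfl hg₁ hg₁z
  have short : ∀ y ∈ E, y * y = 1 → y ≠ 1 → y ≠ z → ¬ IsConj z y →
      ∃ v : ↥leechLattice, sqNorm v.1 = 32 ∧ rep v y := by
    intro y hy hyy h1 hz hyz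
    obtain ⟨v, hv | hv, hvy⟩ := h.involution_rep hy hyy h1 hz
    · exact ⟨v, hv, hvy⟩
    · obtain ⟨c, -, hc⟩ := h.conj_of_norm hrep₁ hvy h1 hz (Or.inr rfl) hv₁ hv
      exact absurd ((isConj_iff.2 ⟨g₁, rfl⟩).trans (isConj_iff.2 ⟨c, hc⟩)) hyz
  obtain ⟨v, hv, hvt⟩ := short t htE htt ht1 htz' htz
  obtain ⟨k, hk⟩ := co0_transitive (Or.inl rfl) test_values.1 hv
  set Ct := Subgroup.centralizer ({t} : Set G) with hCt
  set K := (Subgroup.zpowers t).subgroupOf Ct
  set π := QuotientGroup.mk' K with hπ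
  have hπ1 : ∀ y : ↥Ct, π y = 1 ↔ (y : G) = 1 ∨ (y : G) = t := by
    intro y
    rw [hπ, QuotientGroup.mk'_apply, QuotientGroup.eq_one_iff, Subgroup.mem_subgroupOf, Subgroup.mem_zpowers_iff]
    constructor
    · rintro ⟨n, hn⟩
      rw [← hn]
      rcases Int.even_or_odd n with ⟨m, rfl⟩ | ⟨m, rfl⟩
      · exact Or.inl (by rw [zpow_add, ← (Commute.refl t).mul_zpow, htt, one_zpow])
      · refine Or.inr (by rw [zpow_add, two_mul, zpow_add, ← (Commute.refl t).mul_zpow, htt, one_zpow, zpow_one,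
          one_mul])
    · rintro (e | e)
      · exact ⟨0, by rw [e, zpow_zero]⟩
      · exact ⟨1, by rw [e, zpow_one]⟩
  have hπeq : ∀ y y' : ↥Ct, π y = π y' → (y' : G) = y ∨ (y' : G) = y * t := by
    intro y y' e
    rcases (hπ1 (y⁻¹ * y')).1 (by rw [map_mul, map_inv, e, inv_mul_cancel]) with r | r <;>
      simp only [Subgroup.coe_mul, Subgroup.coe_inv, inv_mul_eq_iff_eq_mul] at r
    · exact Or.inl (by simpa using r)
    · exact Or.inr r
  have hzCt : z ∈ Ct := mem_cent_singleton.2 (h.comm_z htE).symm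
  set zb := π ⟨z, hzCt⟩ with hzb
  have hcz : ∀ y : ↥Ct, π y * zb = zb * π y ↔ (y : G) * z = z * (y : G) := by
    intro y
    refine ⟨fun e => ?_, fun e => by rw [hzb, ← map_mul, ← map_mul]; exact congrArg π (Subtype.ext e)⟩
    rw [hzb, ← map_mul, ← map_mul] at e
    rcases hπeq _ _ e with r | r
    · exact r.symm
    · exfalso
      refine htzc (isConj_iff.2 ⟨(y : G)⁻¹, ?_⟩)
      simp only [Subgroup.coe_mul] at r
      have hty : t * (y : G) = (y : G) * t := (mem_cent_singleton.1 y.2).symm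
      calc (y : G)⁻¹ * z * (y : G)⁻¹⁻¹ = (y : G)⁻¹ * (z * (y : G)) := by group
        _ = (y : G)⁻¹ * ((y : G) * z * t) := by rw [r]
        _ = t * z := by rw [h.comm_z htE]; group
  have hEC : ∀ {q : G}, q ∈ E → q ∈ Subgroup.centralizer ({z} : Set G) := fun hq =>
    mem_cent_singleton.2 (h.comm_z hq)
  -- correspondence with `Co2`
  let Corr : ↥Ct → ↥Spor.Co2 → Prop := fun y g => ∃ hy : (y : G) ∈ Subgroup.centralizer ({z} : Set G),
    θ ⟨y, hy⟩ = QuotientGroup.mk (k * co2El g * k⁻¹)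
  have corr_unique : ∀ {y g g'}, Corr y g → Corr y g' → g = g' := by
    rintro y g g' ⟨hy, e⟩ ⟨hy', e'⟩
    have h2 := mk_eq_one.1 (show (QuotientGroup.mk ((co2El g)⁻¹ * co2El g') : Spor.Co1) = 1 by
      have := e.symm.trans e'
      simp only [QuotientGroup.mk_mul] at this
      rw [QuotientGroup.mk_mul, QuotientGroup.mk_inv, mul_left_cancel (mul_right_cancel this), inv_mul_cancel])
    rcases h2 with r | r
    · exact co2Equiv.injective (Subtype.ext (inv_mul_eq_one.1 r))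
    · exfalso
      have := congrArg (fun m : ↥Co0 => m • uL) r
      simp only [mul_smul, co2El_fix, negEl_apply] at this
      rw [inv_smul_eq_iff.2 (co2El_fix g).symm] at this
      have := congrArg (fun a : ↥leechLattice => (a : GolayPt → ℤ) none) this
      simp only [AddSubgroup.coe_neg, Pi.neg_apply] at this
      rw [show (uL : GolayPt → ℤ) none = 4 from uVec_pts.1] at this
      norm_num at this
  have corr_exists : ∀ y : ↥Ct, (y : G) * z = z * (y : G) → ∃ g, Corr y g := by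
    intro y hy
    have hyC : (y : G) ∈ Subgroup.centralizer ({z} : Set G) := mem_cent_singleton.2 hy
    obtain ⟨m, hm⟩ := QuotientGroup.mk_surjective (θ ⟨y, hyC⟩)
    have e := h.act ⟨y, hyC⟩ m hm.symm hvt
    rw [show (y : G) * t * (y : G)⁻¹ = t by rw [mem_cent_singleton.1 y.2, mul_inv_cancel_right]] at e
    obtain ⟨u, hu⟩ := h.rep_inj hvt e htt
    obtain ⟨m', hm', hfix⟩ : ∃ m' : ↥Co0, (QuotientGroup.mk m' : Spor.Co1) = θ ⟨y, hyC⟩ ∧ m' • v = v := by
      rcases short_class hv (by rw [co0_norm]; exact hv) hu with r | r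
      · exact ⟨m, hm, r⟩
      · refine ⟨negEl * m, ?_, by rw [mul_smul, r, negEl_apply, neg_neg]⟩
        rw [QuotientGroup.mk_mul, mk_eq_one.2 (Or.inr rfl), one_mul, hm]
    have hst : (k⁻¹ * m' * k) • uL = uL := by rw [mul_smul, mul_smul, hk, hfix, ← hk, inv_smul_smul]
    refine ⟨co2Equiv.symm ⟨k⁻¹ * m' * k, hst⟩, hyC, ?_⟩
    rw [show co2El (co2Equiv.symm ⟨k⁻¹ * m' * k, hst⟩) = k⁻¹ * m' * k from rfl,
      show k * (k⁻¹ * m' * k) * k⁻¹ = m' by group, hm']
  have corr_mul : ∀ {y y' g g'}, Corr y g → Corr y' g' → Corr (y * y') (g * g') := by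
    rintro y y' g g' ⟨hy, e⟩ ⟨hy', e'⟩
    refine ⟨mul_mem hy hy', ?_⟩
    rw [show (⟨(↑(y * y') : G), mul_mem hy hy'⟩ : ↥(Subgroup.centralizer ({z} : Set G))) = ⟨y, hy⟩ * ⟨y', hy'⟩
      from rfl, map_mul, e, e', ← QuotientGroup.mk_mul, show co2El (g * g') = co2El g * co2El g' from rfl]
    exact congrArg _ (by group)
  have corr_indep : ∀ {y y' g}, π y = π y' → Corr y g → Corr y' g := by
    rintro y y' g e ⟨hy, hθ⟩
    rcases hπeq y y' e with r | r
    · exact ⟨r ▸ hy, by rw [← hθ]; exact congrArg θ (Subtype.ext r)⟩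
    · refine ⟨r ▸ mul_mem hy (hEC htE), ?_⟩
      rw [show (⟨(y' : G), r ▸ mul_mem hy (hEC htE)⟩ : ↥(Subgroup.centralizer ({z} : Set G))) =
        ⟨y, hy⟩ * ⟨t, hEC htE⟩ from Subtype.ext r, map_mul, (h.θ_ker ⟨t, hEC htE⟩).2 htE, mul_one, hθ]
  set Cb := Subgroup.centralizer ({zb} : Set (↥Ct ⧸ K))
  have hex : ∀ a : ↥Cb, ∃ g, ∃ y, π y = a.1 ∧ Corr y g := by
    intro a
    obtain ⟨y, hy⟩ := QuotientGroup.mk'_surjective K a.1
    obtain ⟨g, hg⟩ := corr_exists y ((hcz y).1 (by rw [hy]; exact mem_cent_singleton.1 a.2))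
    exact ⟨g, y, hy, hg⟩
  choose η₀ hη₀ using hex
  have hηspec : ∀ (a : ↥Cb) (y : ↥Ct) g, π y = a.1 → Corr y g → η₀ a = g := by
    intro a y g hy hc
    obtain ⟨y', hy', hc'⟩ := hη₀ a
    exact corr_unique (corr_indep (hy'.trans hy.symm) hc') hc
  let η : ↥Cb →* ↥Spor.Co2 := MonoidHom.mk' η₀ fun a b => by
    obtain ⟨y, hy, hc⟩ := hη₀ a
    obtain ⟨y', hy', hc'⟩ := hη₀ b
    exact hηspec _ (y * y') _ (by rw [map_mul, hy, hy']; rfl) (corr_mul hc hc')
  have hηsurj : Function.Surjective η := by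
    intro g
    obtain ⟨c, hc, hct⟩ := h.fix_lift hvt ht1 htz' (k := k * co2El g * k⁻¹)
      ⟨0, by rw [mul_smul, mul_smul, inv_smul_eq_iff.2 hk.symm, co2El_fix, hk]; simp⟩
    have hcCt : (c : G) ∈ Ct := mem_cent_singleton.2 (mul_inv_eq_iff_eq_mul.1 hct)
    exact ⟨⟨π ⟨c, hcCt⟩, mem_cent_singleton.2 ((hcz _).2 (mem_cent_singleton.1 c.2))⟩,
      hηspec _ ⟨c, hcCt⟩ g rfl ⟨c.2, hc⟩⟩
  set Qb := η.ker with hQb
  have hQmem : ∀ a : ↥Cb, a ∈ Qb ↔ ∃ y : ↥Ct, π y = a.1 ∧ (y : G) ∈ E := by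
    intro a
    obtain ⟨y, hy, hyC, hθ⟩ := hη₀ a
    rw [MonoidHom.mem_ker]
    constructor
    · intro e
      refine ⟨y, hy, (h.θ_ker ⟨y, hyC⟩).1 ?_⟩
      rw [hθ, show η₀ a = 1 from e, show co2El 1 = 1 from rfl, mul_one, mul_inv_cancel]
      rfl
    · rintro ⟨y', hy', hE⟩
      refine hηspec a y' 1 hy' ⟨hEC hE, ?_⟩
      rw [(h.θ_ker ⟨y', hEC hE⟩).2 hE, show co2El 1 = 1 from rfl, mul_one, mul_inv_cancel]
      rfl
  -- the core of the quotient
  have hlift : ∀ {q : G}, q ∈ E → (hqt : q ∈ Ct) → ∃ a : ↥Cb, a ∈ Qb ∧ a.1 = π ⟨q, hqt⟩ := fun hq hqt =>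
    ⟨⟨π ⟨_, hqt⟩, mem_cent_singleton.2 ((hcz _).2 (h.comm_z hq))⟩, (hQmem _).2 ⟨_, rfl, hq⟩, rfl⟩
  have hzb1 : zb ≠ 1 := fun e => by
    rcases (hπ1 _).1 e with r | r
    exacts [h.core.ne r, htz' r.symm]
  have hcardQ : Nat.card ↥Qb = 2 ^ 23 := by
    let r : ↥(E.subgroupOf Ct) →* ↥Ct ⧸ K := π.comp (E.subgroupOf Ct).subtype
    have h1 := r.ker.index_mul_card
    rw [Subgroup.index_ker, Nat.card_congr (show ↥(E.subgroupOf Ct) ≃ ↥(E ⊓ Ct) from
      ⟨fun y => ⟨y.1.1, y.2, y.1.2⟩, fun q => ⟨⟨q.1, q.2.2⟩, q.2.1⟩, fun _ => rfl, fun _ => rfl⟩),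
      h.cent_core_card htE ht1 htz'] at h1
    have hker : Nat.card ↥r.ker = 2 := by
      rw [Nat.card_eq_two_iff]
      have htC : t ∈ Ct := mem_cent_singleton.2 rfl
      refine ⟨1, ⟨⟨⟨t, htC⟩, htE⟩, (hπ1 _).2 (Or.inr rfl)⟩, fun e => ht1 (congrArg (fun x : ↥r.ker => (x.1.1 : G)) e).symm,
        Set.eq_univ_of_forall fun w => ?_⟩
      rcases (hπ1 w.1.1).1 w.2 with e | e
      · exact Or.inl (Subtype.ext (Subtype.ext (Subtype.ext e)))
      · exact Or.inr (Subtype.ext (Subtype.ext (Subtype.ext e)))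
    rw [hker] at h1
    have hrange : Nat.card ↥r.range = Nat.card ↥Qb := by
      rw [← Subgroup.card_map_of_injective (K := Qb) Cb.subtype_injective]
      congr 2
      ext b
      constructor
      · rintro ⟨y, rfl⟩
        obtain ⟨a, ha, e⟩ := hlift y.2 y.1.2
        exact ⟨a, ha, e⟩
      · rintro ⟨a, ha, rfl⟩
        obtain ⟨y, hy, hE⟩ := (hQmem a).1 ha
        exact ⟨⟨y, hE⟩, hy⟩
    rw [hrange] at h1
    norm_num at h1 ⊢
    omega
  have hbr : ∀ a b : ↥Qb, ⁅a, b⁆ = 1 ∨ (⁅a, b⁆ : ↥Qb).1.1 = zb := by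
    intro a b
    obtain ⟨y, hy, hyE⟩ := (hQmem _).1 a.2
    obtain ⟨y', hy', hyE'⟩ := (hQmem _).1 b.2
    have e : (⁅a, b⁆ : ↥Qb).1.1 = π ⁅y, y'⁆ := by
      rw [map_commutatorElement, hy, hy']; rfl
    rcases h.core.brack _ hyE _ hyE' with r | r
    · refine Or.inl (Subtype.ext (Subtype.ext ?_))
      rw [e, show ⁅y, y'⁆ = 1 from Subtype.ext r, map_one]; rfl
    · exact Or.inr (by rw [e, hzb]; exact congrArg π (Subtype.ext r))
  have hzcen : ∀ (a : ↥Qb), a.1.1 = 1 ∨ a.1.1 = zb → a ∈ Subgroup.center ↥Qb := by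
    rintro a (e | e) <;> refine Subgroup.mem_center_iff.2 fun b => Subtype.ext (Subtype.ext ?_) <;>
      show b.1.1 * a.1.1 = a.1.1 * b.1.1 <;> rw [e]
    · simp
    · exact mem_cent_singleton.1 b.1.2
  have hcen : ∀ a : ↥Qb, a ∈ Subgroup.center ↥Qb ↔ a.1.1 = 1 ∨ a.1.1 = zb := by
    intro a
    refine ⟨fun ha => ?_, hzcen a⟩
    obtain ⟨y, hy, hyE⟩ := (hQmem _).1 a.2
    have hall : ∀ q ∈ E, q * t = t * q → q * (y : G) = (y : G) * q := by
      intro q hq hqt
      obtain ⟨b, hb, e⟩ := hlift hq (mem_cent_singleton.2 hqt)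
      have e1 := congrArg (fun x : ↥Qb => x.1.1) (Subgroup.mem_center_iff.1 ha ⟨b, hb⟩)
      simp only [Subgroup.coe_mul, e, ← hy, ← map_mul] at e1
      by_contra hne
      rcases hπeq _ _ e1 with r | r
      · exact hne r.symm
      · simp only [Subgroup.coe_mul] at r
        have e2 := (h.core.brack _ hyE q hq).resolve_left fun x =>
          hne (commutatorElement_eq_one_iff_mul_comm.1 x).symm
        have hqy : (y : G) * q = q * (y : G) * t := r
        apply htz'
        rw [← e2, commutatorElement_def, hqy]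
        have hty : t * (y : G)⁻¹ = (y : G)⁻¹ * t := by
          have := mem_cent_singleton.1 (inv_mem y.2 : (y : G)⁻¹ ∈ Ct)
          exact this.symm
        calc t = q * q⁻¹ * t := by group
          _ = q * (t * q⁻¹) := by
            rw [show t * q⁻¹ = q⁻¹ * t from (show Commute q t from hqt).symm.inv_right.eq]; group
          _ = _ := by rw [show q * (y : G) * t * (y : G)⁻¹ = q * (y : G) * (t * (y : G)⁻¹) by group, hty]; group
    rcases h.core.cent_cases htE htt ht1 htz' hyE hall with r | r | r | r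
    · exact Or.inl (by rw [← hy]; exact (hπ1 y).2 (Or.inl r))
    · exact Or.inr (by rw [← hy, hzb]; exact congrArg π (Subtype.ext r))
    · exact Or.inl (by rw [← hy]; exact (hπ1 y).2 (Or.inr r))
    · refine Or.inr ?_
      rw [← hy, hzb, show y = ⟨t, mem_cent_singleton.2 rfl⟩ * ⟨z, hzCt⟩ from Subtype.ext r, map_mul,
        (hπ1 _).2 (Or.inr rfl), one_mul]
  obtain ⟨zq, hzq, hzqe⟩ := hlift h.core.mem hzCt
  have hcen2 : Nat.card ↥(Subgroup.center ↥Qb) = 2 := by
    rw [Nat.card_eq_two_iff]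
    refine ⟨1, ⟨⟨zq, hzq⟩, hzcen _ (Or.inr hzqe)⟩, fun e => hzb1 (hzqe.symm.trans
      (congrArg (fun x : ↥(Subgroup.center ↥Qb) => x.1.1.1) e).symm), Set.eq_univ_of_forall fun w => ?_⟩
    rcases (hcen w.1).1 w.2 with e | e
    · exact Or.inl (Subtype.ext (Subtype.ext (Subtype.ext e)))
    · exact Or.inr (Subtype.ext (Subtype.ext (Subtype.ext (e.trans hzqe.symm))))
  have hQp : IsPGroup 2 ↥Qb := IsPGroup.of_card hcardQ
  have hcomm : commutator ↥Qb = Subgroup.center ↥Qb := by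
    have hle : commutator ↥Qb ≤ Subgroup.center ↥Qb := by
      rw [commutator_def, Subgroup.commutator_le]
      intro a _ b _
      rcases hbr a b with e | e
      · rw [e]; exact one_mem _
      · exact hzcen _ (Or.inr e)
    rcases (Nat.dvd_prime Nat.prime_two).1 (hcen2 ▸ Subgroup.card_dvd_of_le hle) with e | e
    · exfalso
      rw [Subgroup.card_eq_one] at e
      have htop : Subgroup.center ↥Qb = ⊤ := eq_top_iff.2 fun a _ => Subgroup.mem_center_iff.2 fun b => by
        have := Subgroup.commutator_mem_commutator (Subgroup.mem_top b) (Subgroup.mem_top a)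
        rw [← commutator_def, e, Subgroup.mem_bot] at this
        exact commutatorElement_eq_one_iff_mul_comm.1 this
      rw [htop, Subgroup.card_top, hcardQ] at hcen2
      norm_num at hcen2
    · exact Subgroup.eq_of_le_of_card_ge hle (by rw [hcen2, e])
  have hQx : IsExtraspecial 2 ↥Qb := by
    refine ⟨⟨hQp, le_antisymm (FGS3.frattini_le_of_elementary (p := 2) hcomm.le fun a => ?_)
      (hcomm ▸ FGS3.commutator_le_frattini hQp), hcomm⟩, hcen2⟩
    obtain ⟨y, hy, hyE⟩ := (hQmem _).1 a.2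
    refine hzcen _ ?_
    have e : (a ^ 2 : ↥Qb).1.1 = π (y * y) := by rw [map_mul, hy, pow_two]; rfl
    rcases h.core.square _ hyE with r | r
    · exact Or.inl (by rw [e]; exact (hπ1 _).2 (Or.inl r))
    · exact Or.inr (by rw [e, hzb]; exact congrArg π (Subtype.ext r))
  -- generalized Fitting subgroup
  have hCQ : Subgroup.centralizer (Qb : Set ↥Cb) ≤ Qb := by
    intro a ha
    rw [hQb, MonoidHom.mem_ker]
    obtain ⟨y, hy, hyC, hθ⟩ := hη₀ a
    show η₀ a = 1
    refine co2Equiv.injective (Subtype.ext ?_)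
    show co2El (η₀ a) = 1
    refine fixesPairs_eq_one (co2El_fix _) fun w hw hd => ?_
    obtain ⟨q, hq⟩ := h.rep_ex (k • w)
    have hqE := h.rep_mem hq
    have hqt : q ∈ Ct := mem_cent_singleton.2 ((h.comm_iff_dot hvt hq htt).2 (by
      rw [← hk, co0_dot]; simp only [cs] at hd; rw [hd]; exact dvd_zero _)).symm
    obtain ⟨b, hb, hbe⟩ := hlift hqE hqt
    have e1 := congrArg Subtype.val (Subgroup.mem_centralizer_iff.1 ha b hb)
    simp only [Subgroup.coe_mul, hbe, ← hy, ← map_mul] at e1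
    have e2 := h.act ⟨y, hyC⟩ _ hθ hq
    rw [mul_smul, mul_smul, inv_smul_smul] at e2
    rcases hπeq _ _ e1 with r | r <;> simp only [Subgroup.coe_mul] at r
    · rw [show ((⟨y, hyC⟩ : ↥(Subgroup.centralizer ({z} : Set G))) : G) * q * (y : G)⁻¹ = q by
        show (y : G) * q * (y : G)⁻¹ = q
        rw [r]; group] at e2
      obtain ⟨u, hu⟩ := h.rep_inj hq e2 ((h.sq_iff hq).2 (by
        rw [stdForm_eq_zero_iff (Subtype.prop _), co0_norm, hw]))
      rcases short_class (by rw [co0_norm]; exact hw) (by rw [co0_norm, co0_norm]; exact hw) hu with s | s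
      · exact Or.inl (smul_left_cancel k s)
      · exact Or.inr (smul_left_cancel k (by rw [s, co0_neg]))
    · exfalso
      have hqt' : (y : G) * q * (y : G)⁻¹ = q * t := by
        rw [r, mul_assoc q (y : G) t, mem_cent_singleton.1 y.2]; group
      rw [show ((⟨y, hyC⟩ : ↥(Subgroup.centralizer ({z} : Set G))) : G) = (y : G) from rfl, hqt'] at e2
      obtain ⟨u, hu⟩ := h.rep_inj (h.rep_mul hq hvt) e2 ((h.sq_iff (h.rep_mul hq hvt)).2 (by
        rw [stdForm_eq_zero_iff (Subtype.prop _), AddSubgroup.coe_add, Leech2.sqNorm_add, co0_norm, hv,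
          ← hk, co0_dot, dot_comm, show dotInt uL.1 w.1 = 0 from hd, hw]; norm_num))
      refine short_long_ne (by rw [co0_norm, co0_norm]; exact hw) ?_ u hu
      rw [AddSubgroup.coe_add, Leech2.sqNorm_add, co0_norm, hv, ← hk, co0_dot, dot_comm,
        show dotInt uL.1 w.1 = 0 from hd, hw]
      norm_num
  have hfit : fittingSubgroup ↥Cb ≤ Qb := by
    rw [Core.fittingSubgroup_eq_iSup]
    refine iSup_le fun p => ?_
    haveI := Fact.mk p.2
    by_cases hp : (p : ℕ) = 2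
    · rw [hp]
      haveI := (inferInstance : (pCore 2 ↥Cb).Normal).map η hηsurj
      intro a ha
      have := no_normal_two_co2 ((pCore 2 ↥Cb).map η) ((Core.isPGroup_pCore 2 _).map η)
      rw [hQb, MonoidHom.mem_ker, ← Subgroup.mem_bot, ← this]
      exact Subgroup.mem_map_of_mem η ha
    · refine le_trans ?_ hCQ
      intro a ha
      rw [Subgroup.mem_centralizer_iff]
      intro b hb
      exact (Subgroup.commute_of_normal_of_disjoint _ _ inferInstance inferInstance
        (IsPGroup.disjoint_of_ne (p : ℕ) 2 hp _ _ (Core.isPGroup_pCore (p : ℕ) _) hQp).symm b a hb ha).eq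
  have hF : generalizedFittingSubgroup ↥Cb = Qb := le_antisymm
    (Components.generalizedFitting_le_of_centralizer_le Qb hfit hCQ)
    (((Core.le_pCore inferInstance hQp).trans (Core.pCore_le_fittingSubgroup 2 _)).trans le_sup_right)
  -- the central involution is not weakly closed
  obtain ⟨j, hjA, vj, hvj, hrepj⟩ := h.exists_short_in_inter rfl hg₁ hg₁z
  obtain ⟨c, hcC, hcj⟩ := h.conj_of_norm hrepj hvt ht1 htz' (Or.inl rfl) hvj hv
  set x := c * (g₁ * z * g₁⁻¹) * c⁻¹ with hxdef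
  set g' := c * g₁ with hg'def
  have hg' : g' * z * g'⁻¹ = x := by rw [hxdef, hg'def]; group
  have hxE : x ∈ E := h.core.norm c (mem_cent_singleton.1 hcC) _ hg₁
  have hxz : x ≠ z := fun e => hg₁z (by
    have : g₁ * z * g₁⁻¹ = c⁻¹ * x * c := by rw [hxdef]; group
    rw [this, e, mul_assoc, ← mem_cent_singleton.1 hcC, ← mul_assoc, inv_mul_cancel, one_mul])
  have htA : t ∈ E ⊓ LocalEven.cj g' E := by
    refine Subgroup.mem_inf.2 ⟨htE, LocalEven.mem_cj.2 ?_⟩
    have := LocalEven.mem_cj.1 (Subgroup.mem_inf.1 hjA).2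
    rw [hg'def, ← hcj]
    rwa [show (c * g₁)⁻¹ * (c * j * c⁻¹) * (c * g₁) = g₁⁻¹ * j * g₁ by group]
  have hxA : x ∈ E ⊓ LocalEven.cj g' E := Subgroup.mem_inf.2 ⟨hxE, (h.conjCore hg').mem⟩
  have hxt : x ∈ Ct := mem_cent_singleton.2 ((h.inter_props hg' hxz).2 x hxA t htA)
  set t₀ := g'⁻¹ * t * g' with ht₀
  have ht₀E : t₀ ∈ E := LocalEven.mem_cj.1 (Subgroup.mem_inf.1 htA).2
  have hconj : IsConj t t₀ := isConj_iff.2 ⟨g'⁻¹, by rw [ht₀, inv_inv]⟩
  have ht₀z : ¬ IsConj z t₀ := fun e => htz (e.trans hconj.symm)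
  have ht₀₁ : t₀ ≠ 1 := fun e => ht1 (by
    calc t = g' * t₀ * g'⁻¹ := by rw [ht₀]; group
      _ = 1 := by rw [e]; group)
  have ht₀z' : t₀ ≠ z := fun e => ht₀z (e ▸ IsConj.refl z)
  obtain ⟨v₀', hv₀', hrep₀⟩ := short t₀ ht₀E (by rw [ht₀, show g'⁻¹ * t * g' * (g'⁻¹ * t * g') = g'⁻¹ * (t * t) * g' by group, htt]; group)
    ht₀₁ ht₀z' ht₀z
  obtain ⟨d, hdC, hd⟩ := h.conj_of_norm hvt hrep₀ ht₀₁ ht₀z' (Or.inl rfl) hv hv₀'
  have hgt : g' * d ∈ Ct := mem_cent_singleton.2 (mul_inv_eq_iff_eq_mul.1 (by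
    calc g' * d * t * (g' * d)⁻¹ = g' * (d * t * d⁻¹) * g'⁻¹ := by group
      _ = t := by rw [hd, ht₀]; group))
  have hgz : g' * d * z * (g' * d)⁻¹ = x := by
    calc g' * d * z * (g' * d)⁻¹ = g' * (d * z * d⁻¹) * g'⁻¹ := by group
      _ = x := by rw [mem_cent_singleton.1 hdC, mul_inv_cancel_right, hg']
  have himg : π ⟨g' * d, hgt⟩ * zb * (π ⟨g' * d, hgt⟩)⁻¹ = π ⟨x, hxt⟩ := by
    rw [hzb, ← map_inv, ← map_mul, ← map_mul]
    exact congrArg π (Subtype.ext hgz)
  refine ⟨zb, Qb, inferInstance, ⟨orderOf_eq_prime (by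
    rw [hzb, ← map_pow, pow_two]; exact (hπ1 _).2 (Or.inl h.core.sq)) hzb1, hF, hQx, hcardQ,
    π ⟨g' * d, hgt⟩, ?_, ?_⟩, ?_⟩
  · rw [himg]
    obtain ⟨a, ha, e⟩ := hlift hxE hxt
    exact ⟨e ▸ a.2, by convert ha using 1; exact Subtype.ext e.symm⟩
  · rw [himg, hzb]
    intro e
    rcases hπeq _ _ e.symm with r | r
    · exact hxz r
    · apply htzc
      rw [show t * z = x by rw [h.comm_z htE]; exact r.symm]
      exact isConj_iff.2 ⟨g', hg'⟩
  · -- the module
    let e₂ : ↥Cb ⧸ Qb ≃* ↥Spor.Co2 := QuotientGroup.quotientKerEquivOfSurjective η hηsurj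
    have hperp : ∀ x : leechPerpU, (16 : ℤ) ∣ dotInt v.1 ((k • (x : ↥leechLattice)) : ↥leechLattice).1 := by
      intro x
      have : (16 : ℤ) ∣ dotInt (x : ↥leechLattice).1 Spor.vecU := x.2
      rw [← hk, co0_dot, dot_comm]
      rwa [show uL.1 = Spor.vecU from congrArg Subtype.val leechU_eq.symm]
    have hpre : ∀ x : leechPerpU, ∃ a : ↥Qb, ∃ y : ↥Ct, π y = a.1.1 ∧ rep (k • (x : ↥leechLattice)) y := by
      intro x
      obtain ⟨q, hq⟩ := h.rep_ex (k • (x : ↥leechLattice))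
      have hqt : q ∈ Ct := mem_cent_singleton.2 ((h.comm_iff_dot hvt hq htt).2 (hperp x)).symm
      obtain ⟨a, ha, e⟩ := hlift (h.rep_mem hq) hqt
      exact ⟨⟨a, ha⟩, ⟨q, hqt⟩, e.symm, hq⟩
    choose α yx hyx hrx using hpre
    have huniq : ∀ (x : leechPerpU) (a : ↥Qb) (y : ↥Ct), π y = a.1.1 → rep (k • (x : ↥leechLattice)) y →
        (QuotientGroup.mk (α x) : ↥Qb ⧸ Subgroup.center ↥Qb) = QuotientGroup.mk a := by
      intro x a y hy hr
      rw [QuotientGroup.eq]
      refine hzcen _ ?_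
      show (α x).1.1⁻¹ * a.1.1 = 1 ∨ (α x).1.1⁻¹ * a.1.1 = zb
      rw [← hy, ← hyx, ← map_inv, ← map_mul]
      rcases (h.rep_eq (hrx x)).1 hr with r | r
      · exact Or.inl ((hπ1 _).2 (Or.inl (by simp [r])))
      · exact Or.inr (by rw [hzb]; exact congrArg π (Subtype.ext (by simp [r])))
    have hmul : ∀ x y : leechPerpU, (QuotientGroup.mk (α (x + y)) : ↥Qb ⧸ Subgroup.center ↥Qb) =
        QuotientGroup.mk (α x) * QuotientGroup.mk (α y) := by
      intro x y
      rw [← QuotientGroup.mk_mul]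
      refine huniq _ (α x * α y) (yx x * yx y) (by rw [map_mul, hyx, hyx]; rfl) ?_
      rw [AddSubgroup.coe_add, co0_add]
      exact h.rep_mul (hrx x) (hrx y)
    refine ⟨e₂, fun x => QuotientGroup.mk (α x), hmul, ?_, ?_, ?_⟩
    · intro b
      induction b using QuotientGroup.induction_on with
      | H a =>
      obtain ⟨y, hy, hyE⟩ := (hQmem _).1 a.2
      obtain ⟨w, hw⟩ := h.rep_total hyE
      have hdot := (h.comm_iff_dot hvt hw htt).1 (mem_cent_singleton.1 y.2).symm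
      have hperpw : (k⁻¹ • w) ∈ leechPerpU := by
        show (16 : ℤ) ∣ dotInt (k⁻¹ • w : ↥leechLattice).1 Spor.vecU
        rw [show Spor.vecU = uL.1 from congrArg Subtype.val leechU_eq, dot_comm]
        rw [show w = k • (k⁻¹ • w) from (smul_inv_smul k w).symm, ← hk, co0_dot] at hdot
        exact hdot
      exact ⟨⟨_, hperpw⟩, huniq _ a y hy (by rw [smul_inv_smul]; exact hw)⟩
    · intro x
      beta_reduce
      rw [QuotientGroup.eq_one_iff]
      constructor
      · intro hc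
        have key : rep (k • (x : ↥leechLattice)) 1 ∨ rep (k • (x : ↥leechLattice)) t := by
          rcases (hcen _).1 hc with r | r <;> rw [← hyx] at r
          · rcases (hπ1 _).1 r with s | s <;> [left; right] <;> exact s ▸ hrx x
          · rcases hπeq _ _ r.symm with s | s
            · left
              refine (h.rep_eq (hrx x)).2 (Or.inr ?_)
              rw [s]; exact h.core.sq.symm
            · right
              refine (h.rep_eq (hrx x)).2 (Or.inr ?_)
              rw [s, show z * t * z = t * (z * z) by rw [← h.comm_z htE]; group, h.core.sq, mul_one]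
        rcases key with r | r
        · obtain ⟨u, hu⟩ := (h.rep_one _).1 r
          exact Or.inl ⟨k⁻¹ • u, by rw [← co0_add, ← hu, inv_smul_smul]⟩
        · obtain ⟨u, hu⟩ := h.rep_inj hvt r htt
          exact Or.inr ⟨k⁻¹ • u, by
            rw [leechU_eq, ← inv_smul_smul k (x : ↥leechLattice), hu, co0_add, co0_add, ← hk, inv_smul_smul]⟩
      · rintro (⟨w, hw⟩ | ⟨w, hw⟩)
        · have r : rep (k • (x : ↥leechLattice)) 1 := (h.rep_one _).2 ⟨k • w, by rw [hw, co0_add]⟩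
          exact (QuotientGroup.eq_one_iff _).1 ((huniq x 1 1 (map_one π) (by simpa using r)).trans (QuotientGroup.mk_one _))
        · have r : rep (k • (x : ↥leechLattice)) t := by
            rw [hw, leechU_eq, co0_add, co0_add, hk]; exact h.rep_dbl hvt
          exact (QuotientGroup.eq_one_iff _).1 ((huniq x 1 ⟨t, mem_cent_singleton.2 rfl⟩
            ((hπ1 _).2 (Or.inr rfl)) r).trans (QuotientGroup.mk_one _))
    · intro a g hag x x' hxx q hq
      obtain ⟨y, hy, hyC, hθ⟩ := hη₀ a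
      have hg : η₀ a = g := hag
      rw [hg] at hθ
      have e := h.act ⟨y, hyC⟩ _ hθ (hrx x)
      rw [mul_smul, mul_smul, inv_smul_smul, show co2El g • (x : ↥leechLattice) = (x' : ↥leechLattice) from hxx] at e
      have hq' : (QuotientGroup.mk (α x) : ↥Qb ⧸ Subgroup.center ↥Qb) = QuotientGroup.mk q := hq
      refine (huniq x' ⟨a * (α x).1 * a⁻¹, (inferInstance : Qb.Normal).conj_mem _ (α x).2 a⟩ (y * yx x * y⁻¹)
        (by rw [map_mul, map_mul, map_inv, hy, hyx]; rfl) e).trans ?_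
      rw [QuotientGroup.eq] at hq' ⊢
      rcases (hcen _).1 hq' with r | r <;>
        refine hzcen _ ?_ <;> [left; right] <;>
        simp only [Subgroup.coe_mul, Subgroup.coe_inv] at r ⊢
      · calc ((a : ↥Cb).1 * (α x).1.1 * (a.1)⁻¹)⁻¹ * (a.1 * q.1.1 * a.1⁻¹) = a.1 * ((α x).1.1⁻¹ * q.1.1) * a.1⁻¹ := by group
          _ = 1 := by rw [r]; group
      · calc ((a : ↥Cb).1 * (α x).1.1 * (a.1)⁻¹)⁻¹ * (a.1 * q.1.1 * a.1⁻¹) = a.1 * ((α x).1.1⁻¹ * q.1.1) * a.1⁻¹ := by group
          _ = zb := by rw [r, mem_cent_singleton.1 a.2, mul_inv_cancel_right]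

end Cfsg.Agent.Leech2
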