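import Cfsg.Agent.Leech2.QuadFinal
import Cfsg.Agent.Golay.LeechOrth2
import Cfsg.Agent.Golay.LeechOrder

/-! Classes of the lattice modulo two: a totally singular invariant subgroup through a short vector
contains only that class. -/

set_option autoImplicit false
set_option maxRecDepth 20000
open Cfsg Cfsg.Agent.Golay
open scoped Pointwise

namespace Cfsg.Agent.Leech2

/-- Integer coordinates of a lattice vector. -/
abbrev cs (a : ↥leechLattice) : GolayPt → ℤ := a.1

theorem stdForm_eq_zero_iff {x : GolayPt → ℤ} (hx : x ∈ leechLattice) :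
    stdForm x = 0 ↔ (32 : ℤ) ∣ sqNorm x := by
  have := sqNorm_dvd hx
  rw [stdForm, ZMod.intCast_zmod_eq_zero_iff_dvd]
  omega

theorem dot_comm (x y : GolayPt → ℤ) : dotInt x y = dotInt y x := by
  simp only [dotInt, mul_comm]

theorem dot_neg_right (x y : GolayPt → ℤ) : dotInt x (-y) = -dotInt x y := by
  simp [dotInt, Finset.sum_neg_distrib]

theorem sqNorm_neg' (x : GolayPt → ℤ) : sqNorm (-x) = sqNorm x := by simp [sqNorm]

theorem sqNorm_sub' (x y : GolayPt → ℤ) : sqNorm (x - y) = sqNorm x + sqNorm y - 2 * dotInt x y := by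
  rw [sub_eq_add_neg, sqNorm_add, sqNorm_neg', dot_neg_right]; ring

/-- A totally singular invariant subgroup through `v`. -/
structure Sing (v : ↥leechLattice) (W : AddSubgroup ↥leechLattice) : Prop where
  dbl : ∀ w : ↥leechLattice, w + w ∈ W
  v_mem : v ∈ W
  sing : ∀ w ∈ W, stdForm (cs w) = 0
  inv : ∀ g : ↥Co0, g • v = v ∨ g • v = -v → ∀ w ∈ W, g • w ∈ W

/-- An automorphism as an additive map. -/
def coHom (g : ↥Co0) : ↥leechLattice →+ ↥leechLattice := AddMonoidHom.mk' (fun a => g • a) (co0_add g)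

theorem Sing.dot {v : ↥leechLattice} {W : AddSubgroup ↥leechLattice} (h : Sing v W) {a b : ↥leechLattice}
    (ha : a ∈ W) (hb : b ∈ W) : (16 : ℤ) ∣ dotInt (cs a) (cs b) := by
  have h1 := (stdForm_eq_zero_iff a.2).1 (h.sing a ha)
  have h2 := (stdForm_eq_zero_iff b.2).1 (h.sing b hb)
  have h3 := (stdForm_eq_zero_iff (a + b).2).1 (h.sing _ (W.add_mem ha hb))
  simp only [cs, AddSubgroup.coe_add, sqNorm_add] at h3 ⊢
  omega

theorem Sing.neg {v : ↥leechLattice} {W : AddSubgroup ↥leechLattice} (h : Sing v W) : Sing (-v) W := by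
  refine ⟨h.dbl, W.neg_mem h.v_mem, h.sing, fun g hg w hw => h.inv g ?_ w hw⟩
  rw [co0_neg, neg_neg, neg_eq_iff_eq_neg (a := g • v), neg_eq_iff_eq_neg (a := g • v)] at hg
  rcases hg with e | e
  · exact Or.inl (by simpa using e)
  · exact Or.inr e

theorem Sing.map {v : ↥leechLattice} {W : AddSubgroup ↥leechLattice} (h : Sing v W) (g : ↥Co0) :
    Sing (g • v) (W.comap (coHom g⁻¹)) := by
  have hc : ∀ u : ↥leechLattice, u ∈ W.comap (coHom g⁻¹) ↔ g⁻¹ • u ∈ W := fun _ => Iff.rfl
  refine ⟨fun w => ?_, ?_, fun w hw => ?_, fun k hk w hw => ?_⟩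
  · rw [hc, co0_add]; exact h.dbl _
  · rw [hc, inv_smul_smul]; exact h.v_mem
  · have hw' := h.sing _ ((hc w).1 hw)
    rw [stdForm_eq_zero_iff (Subtype.prop _)] at hw' ⊢
    simp only [co0_norm] at hw' ⊢
    exact hw'
  · rw [hc]
    have e : g⁻¹ • k • w = (g⁻¹ * k * g) • (g⁻¹ • w) := by
      rw [← mul_smul, ← mul_smul]; group
    rw [e]
    refine h.inv _ ?_ _ ((hc w).1 hw)
    rw [mul_smul, mul_smul]
    rcases hk with e | e
    · exact Or.inl (by rw [e, inv_smul_smul])
    · exact Or.inr (by rw [e, co0_neg, inv_smul_smul])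

/-- The standard short vector. -/
def uL : ↥leechLattice := ⟨uVec, uVec_mem⟩

/-- Test vectors orthogonal to the standard one. -/
def orthA : ↥leechLattice := ⟨sv 2 (bset 10558), leechTest_sound (by decide +kernel)⟩

/-- Second test vector. -/
def orthB : ↥leechLattice := ⟨sv 2 (bset 63108), leechTest_sound (by decide +kernel)⟩

/-- Test vectors with product minus sixteen. -/
def negA : ↥leechLattice := ⟨sv (-2) (bset 8391797), leechTest_sound (by decide +kernel)⟩

/-- Second test vector. -/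
def negB : ↥leechLattice := ⟨sv (-2) (bset 8499969), leechTest_sound (by decide +kernel)⟩

theorem test_values :
    sqNorm (cs uL) = 32 ∧ sqNorm (cs orthA) = 32 ∧ sqNorm (cs orthB) = 32 ∧ sqNorm (cs negA) = 32 ∧
    sqNorm (cs negB) = 32 ∧ dotInt (cs uL) (cs orthA) = 0 ∧ dotInt (cs uL) (cs orthB) = 0 ∧
    dotInt (cs uL) (cs negA) = -16 ∧ dotInt (cs uL) (cs negB) = -16 ∧
    dotInt (cs orthA) (cs orthB) = 8 ∧ dotInt (cs negA) (cs negB) = 8 := by decide +kernel

theorem Sing.no32 {v : ↥leechLattice} {W : AddSubgroup ↥leechLattice} (h : Sing v W)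
    (hv : sqNorm (cs v) = 32) {w : ↥leechLattice} (hw : w ∈ W) (hn : sqNorm (cs w) = 32) :
    w = v ∨ w = -v := by
  obtain ⟨hu, hA, hB, hC, hD, dA, dB, dC, dD, dAB, dCD⟩ := test_values
  obtain ⟨g, hg⟩ := co0_transitive (Or.inl rfl) hv hu
  by_contra hne
  push_neg at hne
  obtain ⟨W', hW', hmem⟩ : ∃ W', Sing uL W' ∧ ∀ u, u ∈ W → g • u ∈ W' :=
    ⟨W.comap (coHom g⁻¹), hg ▸ h.map g, fun u hu => by
      show g⁻¹ • g • u ∈ W
      rwa [inv_smul_smul]⟩
  have main : ∀ u ∈ W', sqNorm (cs u) = 32 → u ≠ uL → u ≠ -uL → False := by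
    intro u hu' hun hne1 hne2
    have hd := hW'.dot hW'.v_mem hu'
    have hpos : ∀ t : ↥leechLattice, t ≠ 0 → 32 ≤ sqNorm (cs t) := fun t ht =>
      sqNorm_ge t.2 fun e => ht (Subtype.ext e)
    have h1 := hpos (u - uL) (sub_ne_zero.2 hne1)
    have h2 := hpos (u + uL) (fun e => hne2 (eq_neg_of_add_eq_zero_left e))
    simp only [cs, AddSubgroup.coe_add, AddSubgroup.coe_sub, sqNorm_sub', sqNorm_add] at h1 h2
    rw [dot_comm] at hd
    simp only [cs] at hd hun hu
    rw [hun, hu] at h1 h2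
    rcases (by omega : dotInt u.1 uL.1 = 0 ∨ dotInt u.1 uL.1 = -16 ∨ dotInt u.1 uL.1 = 16) with e | e | e
    · have get : ∀ t : ↥leechLattice, sqNorm (cs t) = 32 → dotInt (cs uL) (cs t) = 0 → t ∈ W' := by
        intro t ht ht'
        obtain ⟨k, hk1, hk2 | hk2⟩ := orth_pairs_transitive (v := uL) (w := u) (w' := t)
          test_values.1 hun ht (by rw [dot_comm]; exact e) ht'
        · rw [← hk2]; exact hW'.inv k (Or.inl hk1) u hu'
        · rw [← neg_neg t, ← hk2]; exact W'.neg_mem (hW'.inv k (Or.inl hk1) u hu')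
      have := hW'.dot (get _ hA dA) (get _ hB dB)
      omega
    · have get : ∀ t : ↥leechLattice, sqNorm (cs t) = 32 → dotInt (cs uL) (cs t) = -16 → t ∈ W' := by
        intro t ht ht'
        obtain ⟨k, hk1, hk2⟩ := pairs_transitive (v := uL) (w := u) (w' := t) (Or.inl rfl)
          test_values.1 hun ht (by rw [dot_comm]; exact e) ht'
        rw [← hk2]; exact hW'.inv k (Or.inl hk1) u hu'
      have := hW'.dot (get _ hC dC) (get _ hD dD)
      omega
    · have get : ∀ t : ↥leechLattice, sqNorm (cs t) = 32 → dotInt (cs uL) (cs t) = -16 → t ∈ W' := by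
        intro t ht ht'
        obtain ⟨k, hk1, hk2⟩ := pairs_transitive (v := uL) (w := -u) (w' := t) (Or.inl rfl)
          test_values.1 (by rw [AddSubgroup.coe_neg, sqNorm_neg']; exact hun) ht
          (by rw [AddSubgroup.coe_neg, dot_neg_right, dot_comm, e]) ht'
        rw [← hk2]; exact hW'.inv k (Or.inl hk1) _ (W'.neg_mem hu')
      have := hW'.dot (get _ hC dC) (get _ hD dD)
      omega
  refine main (g • w) (hmem w hw) (by simp only [co0_norm]; exact hn) ?_ ?_
  · rw [← hg]; exact fun e => hne.1 (smul_left_cancel g e)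
  · rw [← hg, ← co0_neg]; exact fun e => hne.2 (smul_left_cancel g e)

/-- The standard octad through the extra point. -/
def oct0 : Finset GolayPt := bset 8391797

theorem oct0_ok : oct0 ∈ octads ∧ (none : GolayPt) ∈ oct0 :=
  ⟨M24Orbits.octad_of_mask (by decide +kernel), by decide +kernel⟩

theorem pair_pattern : ((List.range 24).all fun i => (List.range 24).all fun j =>
    !((8391797 : ℕ).testBit i && (8391797 : ℕ).testBit j && i != j && i != 23 && j != 23) ||
      (List.range 4096).any fun k => (encode k &&& 8391797) == (2 ^ i ||| 2 ^ j)) = true := by decide +kernel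

theorem code_on_oct0 (S : Finset GolayPt) (hS : S ⊆ oct0) (hn : (none : GolayPt) ∉ S) (he : S.card % 2 = 0) :
    ∃ c ∈ supports (golayCode : Set (GolayPt → ZMod 2)), c ∩ oct0 = S := by
  classical
  induction S using Finset.strongInduction with
  | H S ih =>
    by_cases h0 : S = ∅
    · exact ⟨∅, empty_mem_supports, by simp [h0]⟩
    obtain ⟨a, ha⟩ := Finset.nonempty_iff_ne_empty.2 h0
    obtain ⟨b, hb⟩ : (S.erase a).Nonempty := by
      rw [← Finset.card_pos, Finset.card_erase_of_mem ha]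
      have := Finset.card_pos.2 ⟨a, ha⟩
      omega
    obtain ⟨hba, hbS⟩ := Finset.mem_erase.1 hb
    obtain ⟨c, hc, hcS⟩ := ih ((S.erase a).erase b) (lt_of_lt_of_le (Finset.erase_ssubset hb)
        (Finset.erase_subset _ _)) (((Finset.erase_subset _ _).trans (Finset.erase_subset _ _)).trans hS)
      (fun h => hn (Finset.mem_of_mem_erase (Finset.mem_of_mem_erase h)))
      (by rw [Finset.card_erase_of_mem hb, Finset.card_erase_of_mem ha]; omega)
    have hidx : ∀ p ∈ S, (8391797 : ℕ).testBit (idx p) = true ∧ idx p ≠ 23 := fun p hp =>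
      ⟨mem_bset.1 (hS hp), fun e => hn (by
        have : p = none := by rw [← pt_idx p, e]; rfl
        rwa [← this])⟩
    have hp := List.all_eq_true.1 (List.all_eq_true.1 pair_pattern (idx a) (List.mem_range.2 (idx_lt a)))
      (idx b) (List.mem_range.2 (idx_lt b))
    have hne : idx a ≠ idx b := fun e => hba (by rw [← pt_idx b, ← e, pt_idx])
    simp only [(hidx a ha).1, (hidx b hbS).1, (hidx a ha).2, (hidx b hbS).2, hne, bne_iff_ne, ne_eq,
      Bool.or_eq_true, Bool.not_eq_true', Bool.and_eq_false_iff, decide_eq_false_iff_not, bne_eq_false_iff_eq,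
      or_self, false_or, Bool.true_eq_false, List.any_eq_true, beq_iff_eq] at hp
    obtain ⟨k, -, hk⟩ := hp
    refine ⟨symmDiff c (bset (encode k)), symmDiff_mem_supports hc (bset_mem_supports (inC_encode k)), ?_⟩
    have e : bset (encode k) ∩ oct0 = {a, b} := by
      ext p
      have := congrArg (fun n => n.testBit (idx p)) hk
      simp only [Nat.testBit_and, Nat.testBit_or, Nat.testBit_two_pow] at this
      simp only [Finset.mem_inter, oct0, mem_bset, Finset.mem_insert, Finset.mem_singleton]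
      have inj : ∀ q, idx q = idx p ↔ p = q := fun q =>
        ⟨fun h => by rw [← pt_idx p, ← h, pt_idx], fun h => by rw [h]⟩
      rw [← Bool.and_eq_true, this]
      simp [inj]
    ext p
    have h1 := Finset.ext_iff.1 hcS p
    have h2 := Finset.ext_iff.1 e p
    simp only [Finset.mem_inter, Finset.mem_erase, Finset.mem_insert, Finset.mem_singleton,
      Finset.mem_symmDiff] at h1 h2 ⊢
    by_cases hpa : p = a
    · subst hpa; simp_all
    by_cases hpb : p = b
    · subst hpb; simp_all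
    simp_all
    tauto

/-- The canonical short vector with coordinate two at the extra point. -/
def v0 : ↥leechLattice := ⟨sv 2 oct0, two_mem (octad_subset_supports oct0_ok.1)⟩

/-- A vector in another frame with an odd coordinate at the extra point. -/
def xOdd : ↥leechLattice := ⟨Golay.oddVec [pt 0, pt 1] [pt 2], leechTest_sound (by decide +kernel)⟩

theorem xOdd_values : sqNorm (cs xOdd) = 64 ∧ cs xOdd none = 1 ∧ dotInt (cs v0) (cs xOdd) = 16 := by
  decide +kernel

theorem even_of_none {x : GolayPt → ℤ} (hx : x ∈ leechLattice) (h : (2 : ℤ) ∣ x none) :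
    ∀ i, (2 : ℤ) ∣ x i := by
  obtain ⟨m, y, hy, -, -⟩ := mem_leech_iff.1 hx
  intro i
  have := hy i
  have := hy none
  omega

theorem to_v0 {v : ↥leechLattice} (hn : sqNorm (cs v) = 32) (h2 : cs v none = 2) :
    ∃ g : ↥Co0, g • v = v0 ∧ g • e8 none = e8 none := by
  classical
  have hev : ∀ i, (2 : ℤ) ∣ cs v i := even_of_none v.2 (by show (2 : ℤ) ∣ cs v none; rw [h2])
  obtain ⟨C, hC, -, h4⟩ := even_split v.2 hev
  have hcoord : ∀ p, p ∈ C ↔ ¬ (4 : ℤ) ∣ cs v p := fun p => by
    have := h4 p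
    have := hev p
    simp only [Pi.sub_apply, sv, cs] at *
    by_cases hp : p ∈ C <;> simp only [hp, if_true, if_false, true_iff, false_iff, not_not, iff_true, iff_false] at * <;> omega
  have hnC : (none : GolayPt) ∈ C := (hcoord none).2 (by rw [h2]; norm_num)
  have hge : ∀ p ∈ C, 4 ≤ cs v p ^ 2 := fun p hp => by
    have := (hcoord p).1 hp
    have := hev p
    rcases (by omega : cs v p ≥ 2 ∨ cs v p ≤ -2) with h | h <;> nlinarith
  have hsum : ∑ p ∈ C, cs v p ^ 2 + ∑ p ∈ Cᶜ, cs v p ^ 2 = 32 := by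
    rw [Finset.sum_add_sum_compl]; exact hn
  have hlow : C.card • (4 : ℤ) ≤ ∑ p ∈ C, cs v p ^ 2 := Finset.card_nsmul_le_sum _ _ _ hge
  have hc0 : 0 ≤ ∑ p ∈ Cᶜ, cs v p ^ 2 := Finset.sum_nonneg fun p _ => sq_nonneg _
  have hcard : C.card = 8 := by
    rw [nsmul_eq_mul] at hlow
    have := Finset.card_pos.2 ⟨_, hnC⟩
    rcases card_of_mem_supports hC with h | h | h | h | h <;> omega
  have hz : ∀ p ∉ C, cs v p = 0 := fun p hp => by
    rw [hcard] at hlow
    have hle := Finset.single_le_sum (f := fun p => cs v p ^ 2) (fun q _ => sq_nonneg _)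
      (Finset.mem_compl.2 hp)
    have : cs v p ^ 2 ≤ 0 := le_trans hle (by norm_num at hlow; omega)
    nlinarith
  have hpm : ∀ p ∈ C, cs v p = 2 ∨ cs v p = -2 := fun p hp => by
    have hrest : (C.erase p).card • (4 : ℤ) ≤ ∑ q ∈ C.erase p, cs v q ^ 2 :=
      Finset.card_nsmul_le_sum _ _ _ fun q hq => hge q (Finset.mem_of_mem_erase hq)
    rw [Finset.card_erase_of_mem hp, hcard] at hrest
    norm_num at hrest
    have := Finset.add_sum_erase _ (fun q => cs v q ^ 2) hp
    have hle : cs v p ^ 2 ≤ 4 := by omega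
    have := (hcoord p).1 hp
    have := hev p
    have : -2 ≤ cs v p ∧ cs v p ≤ 2 := ⟨by nlinarith, by nlinarith⟩
    omega
  have hCo : C ∈ octads := ⟨hC, hcard⟩
  obtain ⟨l, hl, hlC⟩ : ∃ l : List GolayPt, (none :: l).Nodup ∧ l.length = 4 ∧ ∀ p ∈ l, p ∈ C := by
    obtain ⟨s, hs, hsc⟩ := Finset.exists_subset_card_eq (show 4 ≤ (C.erase none).card by
      rw [Finset.card_erase_of_mem hnC, hcard]; norm_num)
    exact ⟨s.toList, List.nodup_cons.2 ⟨fun h => by
      simpa using Finset.ne_of_mem_erase (hs (Finset.mem_toList.1 h)), s.nodup_toList⟩, by simpa using hsc,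
      fun p hp => Finset.mem_of_mem_erase (hs (Finset.mem_toList.1 hp))⟩
  obtain ⟨hl4, hlC⟩ := hlC
  obtain ⟨l', hl', hl'4, hl'O⟩ : ∃ l : List GolayPt, (none :: l).Nodup ∧ l.length = 4 ∧ ∀ p ∈ l, p ∈ oct0 := by
    obtain ⟨s, hs, hsc⟩ := Finset.exists_subset_card_eq (show 4 ≤ (oct0.erase none).card by
      rw [Finset.card_erase_of_mem oct0_ok.2, card_octad oct0_ok.1]; norm_num)
    exact ⟨s.toList, List.nodup_cons.2 ⟨fun h => by
      simpa using Finset.ne_of_mem_erase (hs (Finset.mem_toList.1 h)), s.nodup_toList⟩, by simpa using hsc,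
      fun p hp => Finset.mem_of_mem_erase (hs (Finset.mem_toList.1 hp))⟩
  obtain ⟨σ, hσ, hmap⟩ := exists_mem_M24_list (none :: l) (none :: l') hl hl' (by simp [hl4, hl'4])
    (by simp [hl4])
  rw [List.map_cons, List.cons.injEq] at hmap
  have hσC : σ • C = oct0 := by
    refine octad_eq_of_five_le (smul_mem_octads hσ hCo) oct0_ok.1 ?_
    rw [show 5 = (none :: l').toFinset.card by rw [List.toFinset_card_of_nodup hl']; simp [hl'4]]
    refine Finset.card_le_card fun p hp => Finset.mem_inter.2 ⟨?_, ?_⟩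
    · rw [List.mem_toFinset, ← hmap.1] at hp
      rcases List.mem_cons.1 hp with rfl | hp
      · exact Finset.mem_smul_finset.2 ⟨none, hnC, rfl⟩
      · rw [← hmap.2, List.mem_map] at hp
        obtain ⟨q, hq, rfl⟩ := hp
        exact Finset.mem_smul_finset.2 ⟨q, hlC q hq, rfl⟩
    · rw [List.mem_toFinset] at hp
      rcases List.mem_cons.1 hp with rfl | hp
      · exact oct0_ok.2
      · exact hl'O p hp
  have hmemC : ∀ p, σ.symm p ∈ C ↔ p ∈ oct0 := fun p => by
    rw [← hσC, Finset.mem_smul_finset]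
    exact ⟨fun h => ⟨_, h, Equiv.apply_symm_apply σ p⟩, fun ⟨q, hq, e⟩ => by
      rw [← e, Equiv.Perm.smul_def, Equiv.symm_apply_apply]; exact hq⟩
  have hsn : σ.symm none = none := by rw [Equiv.symm_apply_eq, hmap.1]
  set S : Finset GolayPt := oct0.filter fun p => cs v (σ.symm p) = -2 with hSdef
  have hnS : (none : GolayPt) ∉ S := by simp [hSdef, hsn, h2]
  have hSev : S.card % 2 = 0 := by
    obtain ⟨m, y, hm, hy, -, hs⟩ := (mem_leech_iff.1 v.2).normalize
    have hm0 : m = 0 := by have : cs v none = m + 2 * y none := hy none; have := hev none; omega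
    subst hm0
    have hperm : ∑ p, cs v p = ∑ p, cs v (σ.symm p) := (Equiv.sum_comp σ.symm (cs v)).symm
    have hterm : ∀ p, cs v (σ.symm p) = 2 * (if p ∈ oct0 then 1 else 0) - 4 * (if p ∈ S then 1 else 0) := by
      intro p
      by_cases hp : p ∈ oct0
      · rcases hpm _ ((hmemC p).2 hp) with e | e <;> simp [hSdef, hp, e]
      · have e := hz _ (fun h => hp ((hmemC p).1 h))
        simp [hSdef, hp, e]
    have hcalc : ∑ p, cs v p = 16 - 4 * (S.card : ℤ) := by
      rw [hperm, Finset.sum_congr rfl fun p _ => hterm p, Finset.sum_sub_distrib, ← Finset.mul_sum,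
        ← Finset.mul_sum]
      simp [card_octad oct0_ok.1]
    simp only [cs] at hcalc
    omega
  obtain ⟨c, hc, hcS⟩ := code_on_oct0 S (Finset.filter_subset _ _) hnS hSev
  have hnc : (none : GolayPt) ∉ c := fun h => hnS (hcS ▸ Finset.mem_inter.2 ⟨h, oct0_ok.2⟩)
  refine ⟨monoEl σ hσ c hc, Subtype.ext (funext fun p => ?_), (monoEl_e8 σ hσ c hc).2 ⟨hmap.1, hnc⟩⟩
  rw [monoEl_apply, signedPerm_eq]
  show sgnOf c p * cs v (σ.symm p) = sv 2 oct0 p
  by_cases hp : p ∈ oct0
  · have hiff : p ∈ c ↔ p ∈ S := by rw [← hcS]; simp [hp]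
    rcases hpm _ ((hmemC p).2 hp) with e | e <;> simp [sgnOf, sv, hp, hiff, hSdef, e]
  · have e := hz _ (fun h => hp ((hmemC p).1 h))
    simp [sv, hp, e]

theorem e8_class (i : GolayPt) : ∃ z : ↥leechLattice, e8 none = e8 i + (z + z) := by
  have h : (e8 i : GolayPt → ℤ) ∈ stdCross := ⟨i, 8, Or.inl rfl, rfl⟩
  rw [stdCross_eq] at h
  obtain ⟨-, -, z, hz, e⟩ := h
  exact ⟨⟨z, hz⟩, Subtype.ext (by
    simp only [AddSubgroup.coe_add]; rw [← two_nsmul, ← e]; abel)⟩

theorem Sing.not_e8 {v : ↥leechLattice} {W : AddSubgroup ↥leechLattice} (h : Sing v W)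
    (hv : sqNorm (cs v) = 32) (h2 : cs v none = 2) : e8 none ∉ W := by
  intro hmem
  obtain ⟨g, hg, hge⟩ := to_v0 hv h2
  have hS := h.map g
  rw [hg] at hS
  have he : e8 none ∈ W.comap (coHom g⁻¹) := by
    show g⁻¹ • e8 none ∈ W
    rw [inv_smul_eq_iff.2 hge.symm]; exact hmem
  obtain ⟨hx, hx1, hxd⟩ := xOdd_values
  obtain ⟨g0, hg0⟩ := co0_transitive (Or.inr (Or.inr rfl)) hx (sqNorm_e8 none)
  have hn0 : sqNorm (cs (g0 • v0)) = 32 := by
    simp only [co0_norm]
    decide +kernel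
  have h20 : cs (g0 • v0) none = 2 := by
    have := co0_dot g0 v0 xOdd
    rw [hg0, dotInt_e8] at this
    simp only [cs] at hxd ⊢
    omega
  obtain ⟨m, hm, hme⟩ := to_v0 hn0 h20
  have hfix : (m * g0) • v0 = v0 := by rw [mul_smul, hm]
  have hxim : (m * g0)⁻¹ • e8 none = xOdd := by
    rw [inv_smul_eq_iff, mul_smul, hg0, hme]
  have hxW := hS.inv (m * g0)⁻¹ (Or.inl (inv_smul_eq_iff.2 hfix.symm)) _ he
  rw [hxim] at hxW
  have := hS.dot hxW he
  simp only [cs] at this hx1
  rw [dotInt_e8, hx1] at this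
  omega

theorem Sing.no64 {v : ↥leechLattice} {W : AddSubgroup ↥leechLattice} (h : Sing v W)
    (hv : sqNorm (cs v) = 32) {w : ↥leechLattice} (hw : w ∈ W) (hn : sqNorm (cs w) = 64) : False := by
  obtain ⟨g, hg⟩ := co0_transitive (Or.inr (Or.inr rfl)) hn (sqNorm_e8 none)
  obtain ⟨v1, W1, hS, hv1, he⟩ : ∃ v1 W1, Sing v1 W1 ∧ sqNorm (cs v1) = 32 ∧ e8 none ∈ W1 :=
    ⟨g • v, _, h.map g, by simp only [co0_norm]; exact hv, by
      show g⁻¹ • e8 none ∈ W
      rwa [inv_smul_eq_iff.2 hg.symm]⟩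
  have hei : ∀ i, e8 i ∈ W1 := fun i => by
    obtain ⟨z, hz⟩ := e8_class i
    rw [hz] at he
    simpa using W1.sub_mem he (hS.dbl z)
  have hp := hS.dot hS.v_mem he
  have hnone : (2 : ℤ) ∣ cs v1 none := by
    simp only [cs] at hp ⊢
    rw [dotInt_e8] at hp
    omega
  have hev : ∀ i, (2 : ℤ) ∣ cs v1 i := even_of_none v1.2 hnone
  by_cases h4 : ∀ i, (4 : ℤ) ∣ cs v1 i
  · obtain ⟨i, hi⟩ : ∃ i, cs v1 i ≠ 0 := by
      by_contra hall
      push_neg at hall
      simp [sqNorm, cs] at hv1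
      simp [hall, cs] at hv1
    have hle : cs v1 i ^ 2 ≤ 32 := by
      rw [← hv1]; exact Finset.single_le_sum (f := fun p => cs v1 p ^ 2) (fun _ _ => sq_nonneg _) (Finset.mem_univ i)
    have hb : -6 < cs v1 i ∧ cs v1 i < 6 := ⟨by nlinarith, by nlinarith⟩
    have := h4 i
    have h44 : cs v1 i = 4 ∨ cs v1 i = -4 := by omega
    obtain ⟨E, hE, hEn, hEd⟩ : ∃ E : ↥leechLattice, E ∈ W1 ∧ sqNorm (cs E) = 64 ∧
        dotInt (cs E) (cs v1) = 32 := by
      rcases h44 with e | e
      · exact ⟨e8 i, hei i, sqNorm_e8 i, by simp only [cs]; rw [dot_comm, dotInt_e8]; simp only [cs] at e; omega⟩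
      · exact ⟨-e8 i, W1.neg_mem (hei i), by simp only [AddSubgroup.coe_neg, sqNorm_neg']; exact sqNorm_e8 i, by
          simp only [cs, AddSubgroup.coe_neg]
          rw [dot_comm, dot_neg_right, dotInt_e8]; simp only [cs] at e; omega⟩
    have hun : sqNorm (cs (E - v1)) = 32 := by
      simp only [cs, AddSubgroup.coe_sub, sqNorm_sub'] at *
      omega
    rcases hS.no32 hv1 (W1.sub_mem hE hS.v_mem) hun with e | e
    · have e' : E = v1 + v1 := by rw [sub_eq_iff_eq_add] at e; exact e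
      rw [e', cs, AddSubgroup.coe_add, sqNorm_add, dotInt_self_eq] at hEn
      simp only [cs] at hv1
      omega
    · have e' : E = 0 := by simpa using e
      rw [e'] at hEn
      simp [sqNorm, cs] at hEn
  · push_neg at h4
    obtain ⟨i, hi⟩ := h4
    obtain ⟨σ, hσ, hσi⟩ := exists_mem_M24_one i (none : GolayPt)
    set m := monoEl σ hσ ∅ empty_mem_supports
    have hS2 := hS.map m
    have he2 : e8 none ∈ W1.comap (coHom m⁻¹) := by
      have : e8 none = m • e8 i := Subtype.ext (by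
        rw [monoEl_apply]
        show _ = signedPerm σ ∅ (Pi.single i 8)
        rw [signedPerm_single, hσi]
        simp [sgnOf, e8])
      show m⁻¹ • e8 none ∈ W1
      rw [this, inv_smul_smul]; exact hei i
    have hn2 : sqNorm (cs (m • v1)) = 32 := by simp only [co0_norm]; exact hv1
    have hval : cs (m • v1) none = cs v1 i := by
      simp only [cs, m, monoEl_apply, signedPerm_eq]
      rw [show σ.symm none = i by rw [Equiv.symm_apply_eq, hσi]]
      simp [sgnOf]
    have hle : cs v1 i ^ 2 ≤ 32 := by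
      rw [← hv1]; exact Finset.single_le_sum (f := fun p => cs v1 p ^ 2) (fun _ _ => sq_nonneg _) (Finset.mem_univ i)
    have hb : -6 < cs v1 i ∧ cs v1 i < 6 := ⟨by nlinarith, by nlinarith⟩
    have := hev i
    rcases (by omega : cs v1 i = 2 ∨ cs v1 i = -2) with e | e
    · exact hS2.not_e8 hn2 (hval.trans e) he2
    · refine hS2.neg.not_e8 ?_ ?_ he2
      · simp only [AddSubgroup.coe_neg, sqNorm_neg']; exact hn2
      · show -(cs (m • v1) none) = 2
        rw [hval, e]; norm_num

theorem short_rep (w : ↥leechLattice) : ∃ y z : ↥leechLattice, sqNorm (cs y) ≤ 64 ∧ w = y + (z + z) := by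
  obtain ⟨y, hy, hn, z, hz, e⟩ := leech_short_rep w.2
  exact ⟨⟨y, hy⟩, ⟨z, hz⟩, hn, Subtype.ext (by
    simp only [AddSubgroup.coe_add]; rw [← two_nsmul, ← e]; abel)⟩

/-- A nonzero singular class has a representative of norm 32 or 64. -/
theorem sing_rep {w : ↥leechLattice} (hs : stdForm (cs w) = 0) :
    (∃ z : ↥leechLattice, w = z + z) ∨ ∃ y z : ↥leechLattice,
      (sqNorm (cs y) = 32 ∨ sqNorm (cs y) = 64) ∧ w = y + (z + z) := by
  obtain ⟨y, z, hn, e⟩ := short_rep w
  by_cases hy : y = 0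
  · exact Or.inl ⟨z, by rw [e, hy, zero_add]⟩
  refine Or.inr ⟨y, z, ?_, e⟩
  have h1 := (stdForm_eq_zero_iff w.2).1 hs
  have h2 := sqNorm_ge y.2 fun h => hy (Subtype.ext h)
  have h3 := dot_dvd y.2 z.2
  have h4 := sqNorm_dvd z.2
  have h5 : sqNorm (cs w) = sqNorm (cs y) + 4 * sqNorm (cs z) + 4 * dotInt (cs y) (cs z) := by
    rw [e]
    simp only [cs, AddSubgroup.coe_add, sqNorm, dotInt, Finset.mul_sum, ← Finset.sum_add_distrib]
    exact Finset.sum_congr rfl fun p _ => by simp only [Pi.add_apply]; ring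
  simp only [cs] at *
  omega

theorem Sing.small {v : ↥leechLattice} {W : AddSubgroup ↥leechLattice} (h : Sing v W)
    (hv : sqNorm (cs v) = 32) {w : ↥leechLattice} (hw : w ∈ W) :
    ∃ z : ↥leechLattice, w = z + z ∨ w = v + (z + z) := by
  rcases sing_rep (h.sing w hw) with ⟨z, e⟩ | ⟨y, z, hn, e⟩
  · exact ⟨z, Or.inl e⟩
  have hy : y ∈ W := by
    rw [e] at hw
    simpa using W.sub_mem hw (h.dbl z)
  rcases hn with hn | hn
  · rcases h.no32 hv hy hn with r | r
    · exact ⟨z, Or.inr (by rw [e, r])⟩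
    · exact ⟨z - v, Or.inr (by rw [e, r]; abel)⟩
  · exact (h.no64 hv hy hn).elim

end Cfsg.Agent.Leech2
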