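import Cfsg.Agent.Golay.LeechOrder
import Cfsg.Agent.Golay.Mathieu

/-! The stabilizer of the class of the standard frame, and its normal two-subgroups. -/

set_option autoImplicit false
set_option maxRecDepth 20000
open Cfsg Cfsg.Agent.Golay
open scoped Pointwise

namespace Cfsg.Agent.Leech2

/-- The stabilizer of the standard frame. -/
def frameStab : Subgroup ↥Co0 where
  carrier := {g | ∃ z : ↥leechLattice, g • e8 none = e8 none + (z + z)}
  one_mem' := ⟨0, by simp⟩
  mul_mem' := by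
    rintro a b ⟨z, hz⟩ ⟨y, hy⟩
    exact ⟨z + a • y, by rw [mul_smul, hy, co0_add, hz, co0_add]; abel⟩
  inv_mem' := by
    rintro a ⟨z, hz⟩
    refine ⟨-(a⁻¹ • z), ?_⟩
    rw [inv_smul_eq_iff, co0_add, co0_add, co0_neg, smul_inv_smul, hz]
    abel

theorem mem_frameStab {g : ↥Co0} :
    g ∈ frameStab ↔ ∃ σ, ∃ hσ : σ ∈ M24, ∃ c, ∃ hc : c ∈ supports (golayCode : Set (GolayPt → ZMod 2)),
      g = monoEl σ hσ c hc := by
  have hcl : ∀ v : ↥leechLattice, (v : GolayPt → ℤ) ∈ stdCross →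
      ∃ z : ↥leechLattice, v = e8 none + (z + z) := by
    intro v hv
    rw [stdCross_eq] at hv
    obtain ⟨-, -, z, hz, e⟩ := hv
    refine ⟨⟨-z, neg_mem hz⟩, Subtype.ext ?_⟩
    simp only [AddSubgroup.coe_add]
    rw [← neg_add, ← two_nsmul, ← e]; abel
  constructor
  · rintro ⟨z, hz⟩
    refine exists_mono_of_crossFix fun v hv => ?_
    obtain ⟨y, hy⟩ := hcl v hv
    have hn : sqNorm (v : GolayPt → ℤ) = 64 := by
      obtain ⟨i, s, hs, e⟩ := hv
      rw [e, sqNorm, Finset.sum_eq_single i (fun j _ h => by simp [h]) (by simp), Pi.single_eq_same]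
      rcases hs with rfl | rfl <;> norm_num
    rw [stdCross_eq]
    refine ⟨Subtype.prop _, by rw [co0_norm, hn, sqNorm_e8], ((-(z + g • y) : ↥leechLattice) : GolayPt → ℤ),
      Subtype.prop _, ?_⟩
    rw [hy, co0_add, co0_add, hz]
    simp only [AddSubgroup.coe_add, AddSubgroup.coe_neg, two_nsmul]
    abel
  · rintro ⟨σ, hσ, c, hc, rfl⟩
    obtain ⟨z, hz⟩ := hcl (monoEl σ hσ c hc • e8 none)
      (monoEl_crossFix σ hσ c hc _ ⟨none, 8, Or.inl rfl, rfl⟩)
    exact ⟨z, hz⟩

theorem mono_e8 (σ : Equiv.Perm GolayPt) (hσ : σ ∈ M24) (c : Finset GolayPt)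
    (hc : c ∈ supports (golayCode : Set (GolayPt → ZMod 2))) (i : GolayPt) :
    monoEl σ hσ c hc • e8 i = e8 (σ i) ∨ monoEl σ hσ c hc • e8 i = -e8 (σ i) := by
  by_cases h : σ i ∈ c
  · refine Or.inr (Subtype.ext ?_)
    rw [monoEl_apply]
    show signedPerm σ c (Pi.single i 8) = -(Pi.single (σ i) 8)
    rw [signedPerm_single, sgnOf, if_pos h, ← Pi.single_neg]
    norm_num
  · refine Or.inl (Subtype.ext ?_)
    rw [monoEl_apply]
    show signedPerm σ c (Pi.single i 8) = Pi.single (σ i) 8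
    rw [signedPerm_single, sgnOf, if_neg h, one_mul]

theorem e8_pm_inj {i j : GolayPt} (h : e8 i = e8 j ∨ e8 i = -e8 j) : i = j := by
  by_contra hne
  rcases h with e | e <;>
    · have := congrFun (congrArg (fun a : ↥leechLattice => (a : GolayPt → ℤ)) e) i
      simp [e8, hne] at this

theorem exists_frameHom : ∃ π : ↥frameStab →* Equiv.Perm GolayPt, (∀ g, π g ∈ M24) ∧
    ∀ (g : ↥frameStab) (σ : Equiv.Perm GolayPt) (hσ : σ ∈ M24) (c : Finset GolayPt)
      (hc : c ∈ supports (golayCode : Set (GolayPt → ZMod 2))), g.1 = monoEl σ hσ c hc → π g = σ := by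
  choose σ hσ c hc he using fun g : ↥frameStab => mem_frameStab.1 g.2
  have key : ∀ (g : ↥frameStab) i, g.1 • e8 i = e8 (σ g i) ∨ g.1 • e8 i = -e8 (σ g i) := fun g i => by
    rw [he g]; exact mono_e8 _ _ _ _ _
  refine ⟨MonoidHom.mk' σ fun g h => Equiv.ext fun i => e8_pm_inj ?_, hσ, fun g τ hτ d hd e => ?_⟩
  · rw [Equiv.Perm.mul_apply]
    have h1 := key (g * h) i
    rw [Subgroup.coe_mul, mul_smul] at h1
    rcases key h i with b | b <;> rcases key g (σ h i) with a | a <;> rcases h1 with r | r <;>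
      simp only [b, a, co0_neg, neg_neg] at r
    all_goals
      first
        | exact Or.inl r.symm
        | exact Or.inr r.symm
        | exact Or.inl (neg_injective r).symm
        | exact Or.inr (by rw [r, neg_neg])
  · exact (monoEl_injective ((he g).symm.trans e)).1

/-- The image of the sign changes. -/
def signImage : Subgroup Spor.Co1 where
  carrier := {q | ∃ c, ∃ hc : c ∈ supports (golayCode : Set (GolayPt → ZMod 2)),
    q = QuotientGroup.mk (monoEl 1 (one_mem _) c hc)}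
  one_mem' := ⟨∅, empty_mem_supports, by
    rw [show monoEl 1 (one_mem _) ∅ empty_mem_supports = 1 from co0_ext fun i => Subtype.ext (by
      rw [monoEl_apply, one_smul]
      show signedPerm 1 ∅ (Pi.single i 8) = Pi.single i 8
      rw [signedPerm_single]; simp [sgnOf])]
    rfl⟩
  mul_mem' := by
    rintro _ _ ⟨c, hc, rfl⟩ ⟨d, hd, rfl⟩
    refine ⟨symmDiff c d, symmDiff_mem_supports hc hd, ?_⟩
    rw [← QuotientGroup.mk_mul]
    refine congrArg _ (co0_ext fun i => Subtype.ext (funext fun p => ?_))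
    simp only [mul_smul, monoEl_apply, signedPerm_eq, sgnOf, Finset.mem_symmDiff]
    simp only [show ∀ q, (1 : Equiv.Perm GolayPt).symm q = q from fun _ => rfl]
    by_cases h1 : p ∈ c <;> by_cases h2 : p ∈ d <;> simp [h1, h2]
  inv_mem' := by
    rintro _ ⟨c, hc, rfl⟩
    refine ⟨c, hc, ?_⟩
    rw [← QuotientGroup.mk_inv]
    refine congrArg _ (inv_eq_of_mul_eq_one_right (co0_ext fun i => Subtype.ext (funext fun p => ?_)))
    simp only [one_smul, mul_smul, monoEl_apply, signedPerm_eq]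
    simp only [show ∀ q, (1 : Equiv.Perm GolayPt).symm q = q from fun _ => rfl, ← mul_assoc, sgnOf_sq, one_mul]

theorem mk_eq_one {g : ↥Co0} : (QuotientGroup.mk g : Spor.Co1) = 1 ↔ g = 1 ∨ g = negEl := by
  rw [QuotientGroup.eq_one_iff]
  exact ⟨center_cases, fun h => by
    rcases h with rfl | rfl
    exacts [one_mem _, negEl_mem_center]⟩

theorem negEl_eq : negEl = monoEl 1 (one_mem _) Finset.univ (by
    simpa using compl_mem_supports empty_mem_supports) := co0_ext fun i => Subtype.ext (by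
  rw [negEl_apply, monoEl_apply]
  show -(Pi.single i 8 : GolayPt → ℤ) = signedPerm 1 Finset.univ (Pi.single i 8)
  rw [signedPerm_single, sgnOf, if_pos (Finset.mem_univ _), ← Pi.single_neg]
  norm_num)

theorem signImage_card : Nat.card ↥signImage = 2 ^ 11 := by
  let Dsub : Subgroup ↥Co0 := signImage.comap (QuotientGroup.mk' _)
  have hD : Nat.card ↥Dsub = 4096 := by
    let Φ : ↥(supports (golayCode : Set (GolayPt → ZMod 2))) → ↥Dsub := fun c =>
      ⟨monoEl 1 (one_mem _) c.1 c.2, c.1, c.2, rfl⟩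
    have hΦ : Function.Bijective Φ := by
      refine ⟨fun a b h => Subtype.ext (monoEl_injective (hσ := one_mem _) (hσ' := one_mem _) (hc := a.2) (hc' := b.2) (congrArg Subtype.val h)).2, fun g => ?_⟩
      obtain ⟨c, hc, e⟩ := g.2
      have e' := mk_eq_one.1 (show (QuotientGroup.mk ((monoEl 1 (one_mem _) c hc)⁻¹ * g.1) : Spor.Co1) = 1 by
        rw [QuotientGroup.mk_mul, QuotientGroup.mk_inv, inv_mul_eq_one]; exact e.symm)
      rcases e' with r | r
      · exact ⟨⟨c, hc⟩, Subtype.ext (inv_mul_eq_one.1 r)⟩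
      · refine ⟨⟨cᶜ, compl_mem_supports hc⟩, Subtype.ext ?_⟩
        show monoEl 1 (one_mem _) cᶜ (compl_mem_supports hc) = g.1
        rw [inv_mul_eq_iff_eq_mul] at r
        rw [r, negEl_eq]
        refine co0_ext fun i => Subtype.ext (funext fun p => ?_)
        simp only [mul_smul, monoEl_apply, signedPerm_eq, sgnOf, Finset.mem_compl, Finset.mem_univ, if_true]
        simp only [show ∀ q, (1 : Equiv.Perm GolayPt).symm q = q from fun _ => rfl]
        by_cases h1 : p ∈ c <;> simp [h1]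
    rw [← Nat.card_eq_of_bijective Φ hΦ, Nat.card_coe_set_eq, supports_ncard]
  let r : ↥Dsub →* ↥signImage :=
    { toFun := fun g => ⟨QuotientGroup.mk g.1, g.2⟩
      map_one' := rfl
      map_mul' := fun _ _ => rfl }
  have hr : Function.Surjective r := fun q => by
    obtain ⟨c, hc, e⟩ := q.2
    exact ⟨⟨monoEl 1 (one_mem _) c hc, c, hc, rfl⟩, Subtype.ext e.symm⟩
  have hk : Nat.card ↥r.ker = 2 := by
    rw [← co0_center_card]
    refine Nat.card_congr
      { toFun := fun g => ⟨g.1.1, (QuotientGroup.eq_one_iff _).1 (congrArg Subtype.val g.2)⟩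
        invFun := fun z => ⟨⟨z.1, by
            show (QuotientGroup.mk z.1 : Spor.Co1) ∈ signImage
            rw [(QuotientGroup.eq_one_iff _).2 z.2]; exact one_mem _⟩,
          Subtype.ext ((QuotientGroup.eq_one_iff _).2 z.2)⟩
        left_inv := fun g => rfl
        right_inv := fun z => rfl }
  have h := r.ker.index_mul_card
  rw [Subgroup.index_ker, MonoidHom.range_eq_top.2 hr, Subgroup.card_top, hk, hD] at h
  omega

theorem frame_twoGroup_le (P : Subgroup Spor.Co1) (hP : IsPGroup 2 ↥P)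
    (hle : P ≤ frameStab.map (QuotientGroup.mk' _))
    (hnorm : ∀ g ∈ frameStab, ∀ p ∈ P, (QuotientGroup.mk g : Spor.Co1) * p * (QuotientGroup.mk g)⁻¹ ∈ P) :
    P ≤ signImage := by
  obtain ⟨π, hπM, hπ⟩ := exists_frameHom
  let Pt : Subgroup ↥frameStab := P.comap ((QuotientGroup.mk' _).comp frameStab.subtype)
  have hPt : IsPGroup 2 ↥Pt := fun g => by
    obtain ⟨k, hk⟩ := hP ⟨_, g.2⟩
    refine ⟨k + 1, Subtype.ext (Subtype.ext ?_)⟩
    have h1 : (QuotientGroup.mk ((g.1.1) ^ 2 ^ k) : Spor.Co1) = 1 := congrArg Subtype.val hk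
    show g.1.1 ^ 2 ^ (k + 1) = 1
    rw [pow_succ, pow_mul]
    rcases mk_eq_one.1 h1 with e | e <;> rw [e]
    · simp
    · refine co0_ext fun i => ?_
      rw [pow_two, mul_smul, negEl_apply, negEl_apply, one_smul, neg_neg]
  let N : Subgroup ↥M24 := (Pt.map π).subgroupOf M24
  have hN : N.Normal := by
    refine ⟨fun n hn m => ?_⟩
    obtain ⟨g, hg, e⟩ := hn
    have hm : monoEl m.1 m.2 ∅ empty_mem_supports ∈ frameStab :=
      mem_frameStab.2 ⟨_, m.2, _, empty_mem_supports, rfl⟩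
    refine ⟨⟨_, hm⟩ * g * ⟨_, hm⟩⁻¹, hnorm _ hm _ hg, ?_⟩
    rw [map_mul, map_mul, map_inv, e, hπ ⟨_, hm⟩ m.1 m.2 ∅ empty_mem_supports rfl]
    rfl
  haveI := M24_simple
  rcases hN.eq_bot_or_eq_top with hb | ht
  · intro p hp
    obtain ⟨g, hg, rfl⟩ := hle hp
    obtain ⟨σ, hσ, c, hc, e⟩ := mem_frameStab.1 hg
    have hmem : (⟨σ, hσ⟩ : ↥M24) ∈ N := ⟨⟨g, hg⟩, hp, hπ ⟨g, hg⟩ σ hσ c hc e⟩
    rw [hb, Subgroup.mem_bot] at hmem
    have h1 : σ = 1 := congrArg Subtype.val hmem
    subst h1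
    exact ⟨c, hc, congrArg (QuotientGroup.mk' (Subgroup.center ↥Co0)) e⟩
  · have h2 : IsPGroup 2 ↥N := (hPt.map π).comap_of_injective _ Subtype.val_injective
    rw [ht] at h2
    obtain ⟨k, hk⟩ := (IsPGroup.iff_card (p := 2)).1 (h2.of_equiv Subgroup.topEquiv)
    rw [M24_card] at hk
    have h3 : 3 ∣ 2 ^ k := hk ▸ (by norm_num)
    have := Nat.le_of_dvd (by norm_num) (Nat.prime_three.dvd_of_dvd_pow h3)
    omega

theorem card_twoGroup_le {P : Subgroup Spor.Co1} (hP : IsPGroup 2 ↥P) : Nat.card ↥P ≤ 2 ^ 21 := by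
  haveI := Fact.mk Nat.prime_two
  haveI : Finite ↥Co0 := Nat.finite_of_card_ne_zero (by rw [co0_card]; norm_num)
  obtain ⟨k, hk⟩ := hP.exists_card_eq
  have hdvd : Nat.card ↥P ∣ Nat.card ↥Co0 / 2 := by
    have h := (Subgroup.center ↥Co0).index_mul_card
    rw [co0_center_card] at h
    have h2 : Nat.card Spor.Co1 = Nat.card ↥Co0 / 2 := by
      rw [← h, Nat.mul_div_cancel _ (by norm_num)]; rfl
    exact h2 ▸ Subgroup.card_subgroup_dvd_card P
  rw [co0_card, hk] at hdvd
  rw [hk]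
  refine Nat.pow_le_pow_right (by norm_num) ?_
  by_contra hlt
  have := (pow_dvd_pow 2 (show 22 ≤ k by omega)).trans hdvd
  norm_num at this

end Cfsg.Agent.Leech2
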