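import Cfsg.Agent.Leech2.Classes
import Cfsg.Agent.Leech2.Frame
import Cfsg.Agent.Fischer.ExtraCent
import Cfsg.Agent.Components.FStar
import Cfsg.Agent.Core.Fitting

/-! The extraspecial two-core of a centralizer of Monster type and its conjugates. -/

set_option autoImplicit false
open Cfsg Cfsg.Agent.Golay Cfsg.Agent.Fischer
open scoped commutatorElement

namespace Cfsg.Agent.Leech2

variable {G : Type*} [Group G] [Finite G]

/-- The core of a centralizer read as a lattice modulo two. -/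
structure MQ (z : G) (E : Subgroup G) (θ : ↥(Subgroup.centralizer ({z} : Set G)) →* Spor.Co1)
    (rep : ↥leechLattice → G → Prop) : Prop where
  at_ : CoreAt z E
  card : Nat.card ↥E = 2 ^ 25
  θ_surj : Function.Surjective θ
  θ_ker : ∀ c, θ c = 1 ↔ (c : G) ∈ E
  rep_mem : ∀ {v x}, rep v x → x ∈ E
  rep_total : ∀ {x}, x ∈ E → ∃ v, rep v x
  rep_ex : ∀ v, ∃ x, rep v x
  rep_mul : ∀ {v w x y}, rep v x → rep w y → rep (v + w) (x * y)
  rep_eq : ∀ {v x y}, rep v x → (rep v y ↔ y = x ∨ y = x * z)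
  rep_one : ∀ v, rep v 1 ↔ ∃ w, v = w + w
  act : ∀ (c : ↥(Subgroup.centralizer ({z} : Set G))) (g : ↥Co0), θ c = QuotientGroup.mk g →
    ∀ {v x}, rep v x → rep (g • v) ((c : G) * x * (c : G)⁻¹)

theorem exists_MQ {z : G} {Q : Subgroup (Subgroup.centralizer ({z} : Set G))} [Q.Normal]
    (hz : orderOf z = 2) (hF : generalizedFittingSubgroup (Subgroup.centralizer ({z} : Set G)) = Q)
    (hQ : IsExtraspecial 2 Q) (hcard : Nat.card Q = 2 ^ 25)
    (e : (Subgroup.centralizer ({z} : Set G)) ⧸ Q ≃* Spor.Co1) (ψ : leechLattice → Q ⧸ Subgroup.center Q)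
    (hψ : IsLeechModTwoIso Q e ψ) :
    ∃ rep, MQ z (Q.map (Subgroup.centralizer ({z} : Set G)).subtype)
      (e.toMonoidHom.comp (QuotientGroup.mk' Q)) rep ∧
      ∀ (v : ↥leechLattice) (q : Q), rep v ((q : Subgroup.centralizer ({z} : Set G)) : G) ↔
        ψ v = QuotientGroup.mk q := by
  haveI := Fact.mk Nat.prime_two
  obtain ⟨hadd, hsurj, hker, hact⟩ := hψ
  have hzC : z ∈ (Subgroup.centralizer ({z} : Set G)) := mem_cent_singleton.2 rfl
  have hCQ : Subgroup.centralizer (Q : Set ↥(Subgroup.centralizer ({z} : Set G))) ≤ Q := hF ▸ Components.centralizer_generalizedFitting_le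
  have hcomm : ∀ q : ↥(Subgroup.centralizer ({z} : Set G)), (q : G) * z = z * q := fun q => mem_cent_singleton.1 q.2
  have hzo : orderOf (⟨z, hzC⟩ : ↥(Subgroup.centralizer ({z} : Set G))) = 2 := by rw [Subgroup.orderOf_mk, hz]
  have hL : CoreLike (⟨z, hzC⟩ : ↥(Subgroup.centralizer ({z} : Set G))) Q :=
    coreLike hzo (fun q _ => Subtype.ext (hcomm q)) (fun c _ q hq => ‹Q.Normal›.conj_mem q hq c) hQ hCQ
  set E : Subgroup G := Q.map (Subgroup.centralizer ({z} : Set G)).subtype with hEdef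
  have hmem : ∀ {x : G}, x ∈ E ↔ ∃ q : Q, ((q : ↥(Subgroup.centralizer ({z} : Set G))) : G) = x := fun {x} =>
    ⟨fun ⟨q, hq, e⟩ => ⟨⟨q, hq⟩, e⟩, fun ⟨q, e⟩ => ⟨q.1, q.2, e⟩⟩
  have hpc : pCore 2 ↥(Subgroup.centralizer ({z} : Set G)) = Q := le_antisymm
    (hF ▸ (Core.pCore_le_fittingSubgroup 2 _).trans le_sup_right) (Core.le_pCore inferInstance hQ.1.1)
  have hLG : CoreLike z E := by
    refine ⟨congrArg Subtype.val hL.sq, fun h => hL.ne (Subtype.ext h), ⟨_, hL.mem, rfl⟩, ?_, ?_, ?_, ?_, ?_, ?_⟩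
    · rintro _ ⟨q, -, rfl⟩; exact hcomm q
    · rintro _ ⟨w, hw, rfl⟩ h
      rcases hL.center w hw (fun q hq => Subtype.ext (h _ ⟨q, hq, rfl⟩)) with e | e
      · exact Or.inl (congrArg Subtype.val e)
      · exact Or.inr (congrArg Subtype.val e)
    · rintro _ ⟨a, ha, rfl⟩ _ ⟨b, hb, rfl⟩
      rcases hL.brack a ha b hb with e | e
      · exact Or.inl (congrArg Subtype.val e)
      · exact Or.inr (congrArg Subtype.val e)
    · rintro _ ⟨a, ha, rfl⟩
      rcases hL.square a ha with e | e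
      · exact Or.inl (congrArg Subtype.val e)
      · exact Or.inr (congrArg Subtype.val e)
    · rintro c hc _ ⟨q, hq, rfl⟩
      exact ⟨⟨c, mem_cent_singleton.2 hc⟩ * q * ⟨c, mem_cent_singleton.2 hc⟩⁻¹,
        ‹Q.Normal›.conj_mem q hq _, rfl⟩
    · intro c hc
      have hcC : c ∈ (Subgroup.centralizer ({z} : Set G)) := mem_cent_singleton.2 (hc _ ⟨_, hL.mem, rfl⟩).symm
      exact ⟨⟨c, hcC⟩, hL.small _ (fun q hq => Subtype.ext (hc _ ⟨q, hq, rfl⟩)), rfl⟩
  have hAt : CoreAt z E := ⟨hLG, by rw [hEdef, hpc]⟩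
  refine ⟨fun v x => ∃ q : Q, ((q : ↥(Subgroup.centralizer ({z} : Set G))) : G) = x ∧ ψ v = QuotientGroup.mk q, ?_, fun v q => ?_⟩
  · have hcen : ∀ (q : Q), (QuotientGroup.mk q : Q ⧸ Subgroup.center Q) = 1 ↔
        ((q : ↥(Subgroup.centralizer ({z} : Set G))) : G) = 1 ∨ ((q : ↥(Subgroup.centralizer ({z} : Set G))) : G) = z := fun q => by
      rw [QuotientGroup.eq_one_iff, Subgroup.mem_center_iff]
      constructor
      · intro h
        rcases hL.center q q.2 (fun r hr => congrArg Subtype.val (h ⟨r, hr⟩)) with e | e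
        · exact Or.inl (congrArg Subtype.val e)
        · exact Or.inr (congrArg Subtype.val e)
      · rintro (h | h) <;> intro r <;> apply Subtype.ext <;> apply Subtype.ext <;>
          simp only [Subgroup.coe_mul, h, one_mul, mul_one]
        exact hcomm r
    refine ⟨hAt, ?_, ?_, fun c => ?_, ?_, ?_, ?_, ?_, ?_, ?_, ?_⟩
    · rw [hEdef, Subgroup.card_map_of_injective (Subgroup.centralizer ({z} : Set G)).subtype_injective, hcard]
    · exact e.surjective.comp (QuotientGroup.mk'_surjective Q)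
    · simp only [MonoidHom.coe_comp, MulEquiv.coe_toMonoidHom, Function.comp_apply, QuotientGroup.mk'_apply,
        EmbeddingLike.map_eq_one_iff, QuotientGroup.eq_one_iff]
      exact ⟨fun h => ⟨c, h, rfl⟩, fun ⟨q, hq, e⟩ => by
        rwa [show c = q from Subtype.ext e.symm]⟩
    · rintro v x ⟨q, rfl, -⟩; exact ⟨q.1, q.2, rfl⟩
    · intro x hx
      obtain ⟨q, rfl⟩ := hmem.1 hx
      obtain ⟨v, hv⟩ := hsurj (QuotientGroup.mk q)
      exact ⟨v, q, rfl, hv⟩
    · intro v
      obtain ⟨q, hq⟩ := QuotientGroup.mk_surjective (ψ v)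
      exact ⟨_, q, rfl, hq.symm⟩
    · rintro v w _ _ ⟨p, rfl, hp⟩ ⟨q, rfl, hq⟩
      exact ⟨p * q, rfl, by rw [hadd, hp, hq, QuotientGroup.mk_mul]⟩
    · rintro v _ y ⟨p, rfl, hp⟩
      constructor
      · rintro ⟨q, rfl, hq⟩
        have h := (hcen (p⁻¹ * q)).1 (by rw [QuotientGroup.mk_mul, QuotientGroup.mk_inv, ← hp, hq, inv_mul_cancel])
        rcases h with h | h <;> simp only [Subgroup.coe_mul, Subgroup.coe_inv, inv_mul_eq_iff_eq_mul] at h
        · exact Or.inl (by simpa using h)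
        · exact Or.inr h
      · rintro (rfl | rfl)
        · exact ⟨p, rfl, hp⟩
        · refine ⟨p * ⟨_, hL.mem⟩, rfl, ?_⟩
          rw [QuotientGroup.mk_mul, (hcen ⟨_, hL.mem⟩).2 (Or.inr rfl), mul_one, hp]
    · intro v
      rw [← hker]
      exact ⟨fun ⟨q, hq, h⟩ => by rw [h, (hcen q).2 (Or.inl hq)], fun h => ⟨1, rfl, h⟩⟩
    · rintro c g hcg v _ ⟨q, rfl, hq⟩
      exact ⟨_, rfl, hact c g hcg.symm v q hq⟩
  · exact ⟨fun ⟨r, hr, h⟩ => by rwa [show q = r from Subtype.ext (Subtype.ext hr.symm)], fun h => ⟨q, rfl, h⟩⟩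

namespace MQ

variable {z : G} {E : Subgroup G} {θ : ↥(Subgroup.centralizer ({z} : Set G)) →* Spor.Co1}
  {rep : ↥leechLattice → G → Prop} {x g : G}

theorem core (h : MQ z E θ rep) : CoreLike z E := h.at_.toCoreLike

theorem rep_dbl (h : MQ z E θ rep) {v w : ↥leechLattice} (hv : rep v x) : rep (v + (w + w)) x := by
  simpa using h.rep_mul hv ((h.rep_one _).2 ⟨w, rfl⟩)

theorem rep_inj (h : MQ z E θ rep) {v w : ↥leechLattice} (hv : rep v x) (hw : rep w x) (hx : x * x = 1) :
    ∃ u, w = v + (u + u) := by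
  have e := h.rep_mul hv hw
  rw [hx] at e
  obtain ⟨u, hu⟩ := (h.rep_one _).1 e
  exact ⟨u - v, by rw [eq_sub_of_add_eq' hu]; abel⟩

theorem comm_z (h : MQ z E θ rep) (hx : x ∈ E) : x * z = z * x := h.core.comm x hx

theorem zxz (h : MQ z E θ rep) (hx : x ∈ E) : (x * z) * (x * z) = x * x := by
  rw [mul_assoc, ← mul_assoc z, ← h.comm_z hx, mul_assoc, h.core.sq, mul_one]

theorem exists_noncomm (h : MQ z E θ rep) (hx : x ∈ E) (h1 : x ≠ 1) (hz : x ≠ z) :
    ∃ q ∈ E, q * x * q⁻¹ = x * z := by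
  obtain ⟨q, hq, hqx⟩ : ∃ q ∈ E, q * x ≠ x * q := by
    by_contra hn
    push_neg at hn
    rcases h.core.center x hx hn with e | e
    exacts [h1 e, hz e]
  refine ⟨q, hq, ?_⟩
  have e := (h.core.brack q hq x hx).resolve_left fun e => hqx (commutatorElement_eq_one_iff_mul_comm.1 e)
  rw [commutatorElement_def, mul_inv_eq_iff_eq_mul] at e
  rw [e, h.comm_z hx]

theorem not_dbl (h : MQ z E θ rep) {v : ↥leechLattice} (hv : rep v x) (h1 : x ≠ 1) (hz : x ≠ z) :
    ¬ ∃ w, v = w + w := fun hd => by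
  rcases (h.rep_eq ((h.rep_one v).2 hd)).1 hv with e | e
  exacts [h1 e, hz (by simpa using e)]

theorem sq_iff (h : MQ z E θ rep) :
    ∀ {v : ↥leechLattice} {x : G}, rep v x → (x * x = 1 ↔ stdForm v.1 = 0) := by
  classical
  choose r hr using h.rep_ex
  let χ : G → ZMod 2 := fun t => if t = 1 then 0 else 1
  have hne : z ≠ 1 := h.core.ne
  have hχ : ∀ {s t : G}, (s = 1 ∨ s = z) → (t = 1 ∨ t = z) → χ (s * t) = χ s + χ t := by
    rintro s t (rfl | rfl) (rfl | rfl) <;> simp [χ, hne, h.core.sq, CharTwo.add_self_eq_zero]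
  let s : G → ZMod 2 := fun a => χ (a * a)
  let b : G → G → ZMod 2 := fun a c => χ ⁅a, c⁆
  have hs : ∀ {a c : G}, a ∈ E → c ∈ E → s (a * c) = b c a + (s a + s c) := by
    intro a c ha hc
    have hcen : ∀ {w : G}, (w = 1 ∨ w = z) → ∀ t ∈ E, t * w = w * t := by
      rintro w (rfl | rfl) t ht
      · simp
      · exact h.comm_z ht
    have hb := h.core.brack c hc a ha
    have e1 : c * a = ⁅c, a⁆ * (a * c) := by rw [commutatorElement_def]; group
    have e : a * c * (a * c) = ⁅c, a⁆ * ((a * a) * (c * c)) := by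
      calc a * c * (a * c) = a * (c * a) * c := by group
        _ = (a * ⁅c, a⁆) * (a * c * c) := by rw [e1]; group
        _ = _ := by rw [hcen hb a ha]; group
    have hm : a * a * (c * c) = 1 ∨ a * a * (c * c) = z := by
      rcases h.core.square a ha with e | e <;> rcases h.core.square c hc with e' | e' <;>
        simp [e, e', h.core.sq]
    show χ _ = _
    rw [e, hχ hb hm, hχ (h.core.square a ha) (h.core.square c hc)]
  have hb : ∀ {w a c : G}, w ∈ E → a ∈ E → c ∈ E → b w (a * c) = b w a + b w c := by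
    intro w a c hw ha hc
    have e : ⁅w, a * c⁆ = ⁅w, a⁆ * ⁅w, c⁆ := by
      have e0 : ⁅w, a * c⁆ = ⁅w, a⁆ * (a * ⁅w, c⁆ * a⁻¹) := by simp only [commutatorElement_def]; group
      rcases h.core.brack w hw c hc with e' | e' <;> rw [e0, e']
      · simp
      · rw [h.comm_z ha, mul_assoc, mul_inv_cancel, mul_one]
    show χ _ = _
    rw [e, hχ (h.core.brack w hw a ha) (h.core.brack w hw c hc)]
  have hQF : ∀ {v x}, rep v x → s x = s (r v) := by
    intro v x hv
    rcases (h.rep_eq (hr v)).1 hv with rfl | rfl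
    · rfl
    · show χ _ = χ _; rw [h.zxz (h.rep_mem (hr v))]
  have hcomb : ∀ v w, s (r (v + w)) = b (r w) (r v) + (s (r v) + s (r w)) := fun v w => by
    rw [← hQF (h.rep_mul (hr v) (hr w)), hs (h.rep_mem (hr v)) (h.rep_mem (hr w))]
  have hstd := leech_quadratic_unique (fun v => s (r v)) (fun v w => (hQF (h.rep_dbl (hr v))).symm)
    (fun u v w => by
      have hu := h.rep_mem (hr u)
      have hv := h.rep_mem (hr v)
      have hw := h.rep_mem (hr w)
      beta_reduce
      rw [← hQF (h.rep_mul (h.rep_mul (hr u) (hr v)) (hr w)), hs (mul_mem hu hv) hw, hb hw hu hv,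
        hs hu hv, hcomb u v, hcomb u w, hcomb v w]
      generalize s (r u) = A
      generalize s (r v) = B
      generalize s (r w) = C
      generalize b (r w) (r u) = D
      generalize b (r w) (r v) = F
      generalize b (r v) (r u) = K
      revert A B C D F K
      decide)
    (fun g v => by
      obtain ⟨c, hc⟩ := h.θ_surj (QuotientGroup.mk g)
      have e := hQF (h.act c g hc (hr v))
      beta_reduce
      rw [← e]
      show χ _ = χ _
      rw [show (c : G) * r v * (c : G)⁻¹ * ((c : G) * r v * (c : G)⁻¹) = (c : G) * (r v * r v) * (c : G)⁻¹ by group]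
      rcases h.core.square _ (h.rep_mem (hr v)) with e' | e' <;> rw [e']
      · simp
      · rw [mem_cent_singleton.1 c.2, mul_assoc, mul_inv_cancel, mul_one])
    (by
      by_contra hn
      push_neg at hn
      have hall : ∀ a ∈ E, a * a = 1 := fun a ha => by
        obtain ⟨v, hv⟩ := h.rep_total ha
        have := hn v
        rw [← hQF hv] at this
        by_contra hne'
        simp [s, χ, hne'] at this
      have hinv : ∀ a ∈ E, a⁻¹ = a := fun a ha => inv_eq_of_mul_eq_one_right (hall a ha)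
      have hcom : ∀ a ∈ E, ∀ q ∈ E, q * a = a * q := fun a ha q hq => by
        have := hinv _ (mul_mem hq ha)
        rw [mul_inv_rev, hinv a ha, hinv q hq] at this
        exact this.symm
      have hle : (E : Set G) ⊆ {1, z} := fun a ha => h.core.center a ha (hcom a ha)
      have h2 := Set.ncard_le_ncard hle
      rw [← Nat.card_coe_set_eq, Set.ncard_pair (Ne.symm hne)] at h2
      have h25 : Nat.card (E : Set G) = 2 ^ 25 := h.card
      rw [h25] at h2
      norm_num at h2)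
  intro v x hv
  have e : stdForm v.1 = s x := by rw [hQF hv]; exact (hstd v).symm
  by_cases hx : x * x = 1 <;> simp [e, s, χ, hx]

theorem involution_rep (h : MQ z E θ rep) (hx : x ∈ E) (hxx : x * x = 1) (h1 : x ≠ 1) (hz : x ≠ z) :
    ∃ v : ↥leechLattice, (sqNorm v.1 = 32 ∨ sqNorm v.1 = 64) ∧ rep v x := by
  obtain ⟨v, hv⟩ := h.rep_total hx
  rcases sing_rep ((h.sq_iff hv).1 hxx) with ⟨w, e⟩ | ⟨y, w, hn, e⟩
  · exact absurd ⟨w, e⟩ (h.not_dbl hv h1 hz)
  · refine ⟨y, hn, ?_⟩
    have h' := h.rep_dbl (w := -w) hv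
    rwa [e, show y + (w + w) + (-w + -w) = y by abel] at h'

theorem conj_of_norm (h : MQ z E θ rep) {v w : ↥leechLattice} {y : G} (hv : rep v x) (hw : rep w y)
    (h1 : y ≠ 1) (hz : y ≠ z) {n : ℤ} (hn : n = 32 ∨ n = 64) (hvn : sqNorm v.1 = n) (hwn : sqNorm w.1 = n) :
    ∃ c ∈ Subgroup.centralizer ({z} : Set G), c * x * c⁻¹ = y := by
  obtain ⟨g, hg⟩ := co0_transitive (hn.elim Or.inl (fun e => Or.inr (Or.inr e))) hvn hwn
  obtain ⟨c, hc⟩ := h.θ_surj (QuotientGroup.mk g)
  have hc' := h.act c g hc hv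
  rw [hg] at hc'
  rcases (h.rep_eq hw).1 hc' with e | e
  · exact ⟨c, c.2, e⟩
  obtain ⟨q, hq, hqy⟩ := h.exists_noncomm (h.rep_mem hw) h1 hz
  refine ⟨q * c, mul_mem (mem_cent_singleton.2 (h.comm_z hq)) c.2, ?_⟩
  rw [mul_inv_rev, show q * (c : G) * x * ((c : G)⁻¹ * q⁻¹) = q * ((c : G) * x * (c : G)⁻¹) * q⁻¹ by group, e,
    show q * (y * z) * q⁻¹ = q * y * q⁻¹ * (q * z * q⁻¹) by group, hqy, h.comm_z hq, mul_assoc z,
    mul_inv_cancel, mul_one, mul_assoc, h.core.sq, mul_one]

theorem fix_lift (h : MQ z E θ rep) {v : ↥leechLattice} (hv : rep v x) (h1 : x ≠ 1) (hz : x ≠ z)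
    {k : ↥Co0} (hk : ∃ u, k • v = v + (u + u)) :
    ∃ c : ↥(Subgroup.centralizer ({z} : Set G)), θ c = QuotientGroup.mk k ∧ (c : G) * x * (c : G)⁻¹ = x := by
  obtain ⟨u, hu⟩ := hk
  obtain ⟨c, hc⟩ := h.θ_surj (QuotientGroup.mk k)
  have hc' := h.act c k hc hv
  rw [hu] at hc'
  rcases (h.rep_eq (h.rep_dbl hv)).1 hc' with e | e
  · exact ⟨c, hc, e⟩
  obtain ⟨q, hq, hqx⟩ := h.exists_noncomm (h.rep_mem hv) h1 hz
  have hqC : q ∈ Subgroup.centralizer ({z} : Set G) := mem_cent_singleton.2 (h.comm_z hq)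
  refine ⟨⟨q, hqC⟩ * c, by rw [map_mul, (h.θ_ker _).2 hq, one_mul, hc], ?_⟩
  show q * (c : G) * x * (q * (c : G))⁻¹ = x
  rw [mul_inv_rev, show q * (c : G) * x * ((c : G)⁻¹ * q⁻¹) = q * ((c : G) * x * (c : G)⁻¹) * q⁻¹ by group, e,
    show q * (x * z) * q⁻¹ = q * x * q⁻¹ * (q * z * q⁻¹) by group, hqx, h.comm_z hq, mul_assoc z,
    mul_inv_cancel, mul_one, mul_assoc, h.core.sq, mul_one]

theorem abelian_card_le (h : MQ z E θ rep) {A : Subgroup G} (hAE : A ≤ E) (hzA : z ∈ A)
    (hcomm : ∀ a ∈ A, ∀ b ∈ A, a * b = b * a) : Nat.card ↥A ≤ 2 ^ 13 := by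
  classical
  let K : Subgroup G → Subgroup G := fun B => A ⊓ Subgroup.centralizer (B : Set G)
  have main : ∀ n, ∀ B : Subgroup G, B ≤ E → Nat.card ↥E ≤ Nat.card ↥B + n →
      Nat.card ↥(K B) * Nat.card ↥B ≤ 2 * 2 ^ 25 := by
    intro n
    induction n with
    | zero =>
      intro B hB hn
      have hBE : B = E := Subgroup.eq_of_le_of_card_ge hB (by simpa using hn)
      subst hBE
      rw [h.card]
      refine Nat.mul_le_mul_right _ ?_
      have hle : (K B : Set G) ⊆ {1, z} := fun a ha => h.core.center a (hAE ha.1) fun q hq => ha.2 q hq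
      have h2 := Set.ncard_le_ncard hle
      rw [← Nat.card_coe_set_eq, Set.ncard_pair (Ne.symm h.core.ne)] at h2
      exact h2
    | succ n ih =>
      intro B hB hn
      by_cases hBE : B = E
      · subst hBE
        exact ih B hB (by omega)
      obtain ⟨t, ht, htB⟩ := SetLike.exists_of_lt (lt_of_le_of_ne hB hBE)
      set B' := B ⊔ Subgroup.zpowers t with hB'
      have hB'E : B' ≤ E := sup_le hB (Subgroup.zpowers_le.2 ht)
      have htwo : 2 * Nat.card ↥B ≤ Nat.card ↥B' := by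
        obtain ⟨m, hm⟩ := Subgroup.card_dvd_of_le (le_sup_left : B ≤ B')
        have hne : B ≠ B' := fun e => htB (e ▸ Subgroup.mem_sup_right (Subgroup.mem_zpowers t))
        rcases (show m = 0 ∨ m = 1 ∨ 2 ≤ m by omega) with rfl | rfl | h2
        · exact absurd hm (by simpa using Nat.card_pos.ne')
        · exact absurd (Subgroup.eq_of_le_of_card_ge le_sup_left (by rw [hm, mul_one])) hne
        · rw [hm, mul_comm]; exact Nat.mul_le_mul_left _ h2
      have hKK : Nat.card ↥(K B) ≤ Nat.card ↥(K B') * 2 := by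
        have hmem : ∀ a ∈ K B, a * t = t * a → a ∈ K B' := fun a ha hat => ⟨ha.1, by
          refine Subgroup.mem_centralizer_iff.2 ?_
          have hle : B' ≤ Subgroup.centralizer ({a} : Set G) := sup_le
            (fun q hq => Subgroup.mem_centralizer_singleton_iff.2 (ha.2 q hq))
            (Subgroup.zpowers_le.2 (Subgroup.mem_centralizer_singleton_iff.2 hat.symm))
          exact fun q hq => Subgroup.mem_centralizer_singleton_iff.1 (hle hq)⟩
        by_cases hall : ∀ a ∈ K B, a * t = t * a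
        · exact (Subgroup.card_le_of_le fun a ha => hmem a ha (hall a ha)).trans (by omega)
        push_neg at hall
        obtain ⟨a0, ha0, ha0t⟩ := hall
        have hbr : ∀ a ∈ K B, a * t ≠ t * a → a * t = z * (t * a) := fun a ha hne => by
          have e := (h.core.brack a (hAE ha.1) t ht).resolve_left fun e =>
            hne (commutatorElement_eq_one_iff_mul_comm.1 e)
          rw [← e, commutatorElement_def]; group
        have hfix : ∀ a ∈ K B, a * t ≠ t * a → a0⁻¹ * a * t = t * (a0⁻¹ * a) := fun a ha hne => by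
          calc a0⁻¹ * a * t = a0⁻¹ * (z * (t * a)) := by rw [mul_assoc, hbr a ha hne]
            _ = a0⁻¹ * (z * (t * a0)) * (a0⁻¹ * a) := by group
            _ = a0⁻¹ * (a0 * t) * (a0⁻¹ * a) := by rw [hbr a0 ha0 ha0t]
            _ = _ := by group
        let Φ : ↥(K B) → ↥(K B') × Fin 2 := fun a =>
          if hc : (a : G) * t = t * a then (⟨a, hmem a a.2 hc⟩, 0)
          else (⟨a0⁻¹ * a, hmem _ (mul_mem (inv_mem ha0) a.2) (hfix a a.2 hc)⟩, 1)
        have hinj : Function.Injective Φ := by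
          intro a b hab
          simp only [Φ] at hab
          split_ifs at hab with ha hb hb
          · exact Subtype.ext (congrArg (fun p : ↥(K B') × Fin 2 => (p.1 : G)) hab)
          · exact absurd (congrArg Prod.snd hab) (by simp)
          · exact absurd (congrArg Prod.snd hab) (by simp)
          · exact Subtype.ext (mul_left_cancel (congrArg (fun p : ↥(K B') × Fin 2 => (p.1 : G)) hab))
        have := Nat.card_le_card_of_injective Φ hinj
        rwa [Nat.card_prod, Nat.card_fin] at this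
      have hpos : 0 < Nat.card ↥B := Nat.card_pos
      calc Nat.card ↥(K B) * Nat.card ↥B ≤ Nat.card ↥(K B') * 2 * Nat.card ↥B := Nat.mul_le_mul_right _ hKK
        _ = Nat.card ↥(K B') * (2 * Nat.card ↥B) := by ring
        _ ≤ Nat.card ↥(K B') * Nat.card ↥B' := Nat.mul_le_mul_left _ htwo
        _ ≤ _ := ih B' hB'E (by omega)
  have hK : K A = A := inf_eq_left.2 fun a ha => Subgroup.mem_centralizer_iff.2 fun q hq => hcomm q hq a ha
  have := main _ A hAE (Nat.le_add_left _ _)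
  rw [hK] at this
  by_contra hlt
  push_neg at hlt
  have := Nat.mul_le_mul hlt.le hlt
  norm_num at this
  omega

section fusion

variable (h : MQ z E θ rep) (hg : g * z * g⁻¹ = x) (hx : x ∈ E) (hxz : x ≠ z)

include h hg in
theorem conjCore : CoreLike x (LocalEven.cj g E) := hg ▸ h.core.conj g

include h hg hx in
theorem z_mem : z ∈ LocalEven.cj g E :=
  h.at_.symm_mem hg hx (by rw [← hg, core_conj, ← h.at_.core])

include h hg hxz in
theorem inter_props : (∀ a ∈ E ⊓ LocalEven.cj g E, a * a = 1) ∧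
    ∀ a ∈ E ⊓ LocalEven.cj g E, ∀ b ∈ E ⊓ LocalEven.cj g E, a * b = b * a := by
  have hF := h.conjCore hg
  refine ⟨fun a ha => ?_, fun a ha b hb => ?_⟩
  · rcases h.core.square a ha.1 with e | e
    · exact e
    rcases hF.square a ha.2 with e' | e'
    · exact e'
    · exact absurd (e'.symm.trans e) hxz
  · rw [← commutatorElement_eq_one_iff_mul_comm]
    rcases h.core.brack a ha.1 b hb.1 with e | e
    · exact e
    rcases hF.brack a ha.2 b hb.2 with e' | e'
    · exact e'
    · exact absurd (e'.symm.trans e) hxz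

include h hg hxz in
/-- The conjugate core met with the centralizer, seen modulo the core. -/
theorem inter_card (hzF : z ∈ LocalEven.cj g E) :
    ∃ P : Subgroup Spor.Co1,
      P = ((LocalEven.cj g E ⊓ Subgroup.centralizer ({z} : Set G)).subgroupOf
        (Subgroup.centralizer ({z} : Set G))).map θ ∧ IsPGroup 2 ↥P ∧
      2 ^ 24 ≤ Nat.card ↥P * Nat.card ↥(E ⊓ LocalEven.cj g E) := by
  classical
  set F := LocalEven.cj g E with hFdef
  have hF := h.conjCore hg
  haveI := Fact.mk Nat.prime_two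
  have hR : 2 ^ 25 ≤ Nat.card ↥((F ⊓ (Subgroup.centralizer ({z} : Set G))).subgroupOf (Subgroup.centralizer ({z} : Set G))) * 2 := by
    rw [Nat.card_congr (Subgroup.subgroupOfEquivOfLe (inf_le_right : F ⊓ (Subgroup.centralizer ({z} : Set G)) ≤ (Subgroup.centralizer ({z} : Set G)))).toEquiv, ← h.card,
      ← LocalEven.card_cj g E]
    obtain ⟨q0, hq0, hq0z⟩ : ∃ q ∈ F, q * z ≠ z * q := by
      by_contra hn
      push_neg at hn
      rcases hF.center z hzF hn with e | e
      exacts [h.core.ne e, hxz e.symm]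
    have hbr : ∀ q ∈ F, q * z ≠ z * q → q * z = x * (z * q) := fun q hq hne => by
      have e := (hF.brack q hq z hzF).resolve_left fun e => hne (commutatorElement_eq_one_iff_mul_comm.1 e)
      rw [← e, commutatorElement_def]; group
    have hfix : ∀ q ∈ F, q * z ≠ z * q → q0⁻¹ * q ∈ (Subgroup.centralizer ({z} : Set G)) := fun q hq hne => by
      refine mem_cent_singleton.2 ?_
      calc q0⁻¹ * q * z = q0⁻¹ * (x * (z * q)) := by rw [mul_assoc, hbr q hq hne]
        _ = q0⁻¹ * (x * (z * q0)) * (q0⁻¹ * q) := by group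
        _ = q0⁻¹ * (q0 * z) * (q0⁻¹ * q) := by rw [hbr q0 hq0 hq0z]
        _ = _ := by group
    let Φ : ↥(LocalEven.cj g E) → ↥(F ⊓ (Subgroup.centralizer ({z} : Set G))) × Fin 2 := fun q =>
      if hc : (q : G) * z = z * q then (⟨q, q.2, mem_cent_singleton.2 hc⟩, 0)
      else (⟨q0⁻¹ * q, Subgroup.mem_inf.2 ⟨mul_mem (inv_mem hq0) q.2, hfix q q.2 hc⟩⟩, 1)
    have hinj : Function.Injective Φ := by
      intro a b hab
      simp only [Φ] at hab
      split_ifs at hab with ha hb hb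
      · exact Subtype.ext (congrArg (fun p : ↥(F ⊓ (Subgroup.centralizer ({z} : Set G))) × Fin 2 => (p.1 : G)) hab)
      · exact absurd (congrArg Prod.snd hab) (by simp)
      · exact absurd (congrArg Prod.snd hab) (by simp)
      · exact Subtype.ext (mul_left_cancel (congrArg (fun p : ↥(F ⊓ (Subgroup.centralizer ({z} : Set G))) × Fin 2 => (p.1 : G)) hab))
    have := Nat.card_le_card_of_injective Φ hinj
    rwa [Nat.card_prod, Nat.card_fin] at this
  refine ⟨_, rfl, ?_, ?_⟩
  · have hp : IsPGroup 2 ↥F := (IsPGroup.of_card (by rw [LocalEven.card_cj, h.card]) : IsPGroup 2 ↥F)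
    exact ((hp.to_le inf_le_left).comap_of_injective (Subgroup.centralizer ({z} : Set G)).subtype (Subgroup.centralizer ({z} : Set G)).subtype_injective).map θ
  · set R := (F ⊓ (Subgroup.centralizer ({z} : Set G))).subgroupOf (Subgroup.centralizer ({z} : Set G))
    have h1 := (θ.comp R.subtype).ker.index_mul_card
    rw [Subgroup.index_ker, MonoidHom.range_comp, Subgroup.range_subtype] at h1
    have hA : Nat.card ↥(θ.comp R.subtype).ker = Nat.card ↥(E ⊓ F) := by
      have hEC : E ≤ (Subgroup.centralizer ({z} : Set G)) := fun a ha => mem_cent_singleton.2 (h.comm_z ha)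
      refine Nat.card_congr
        { toFun := fun a => ⟨a.1.1.1, (h.θ_ker a.1.1).1 a.2, a.1.2.1⟩
          invFun := fun a => ⟨⟨⟨a.1, hEC a.2.1⟩, a.2.2, hEC a.2.1⟩, (h.θ_ker ⟨a.1, hEC a.2.1⟩).2 a.2.1⟩
          left_inv := fun a => rfl
          right_inv := fun a => rfl }
    rw [hA] at h1
    rw [h1]
    omega

include h hg hx hxz in
theorem inter_normalized {c : ↥(Subgroup.centralizer ({z} : Set G))} (hc : (c : G) * x * (c : G)⁻¹ = x) :
    (∀ a ∈ E ⊓ LocalEven.cj g E, (c : G) * a * (c : G)⁻¹ ∈ E ⊓ LocalEven.cj g E) ∧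
    ∀ p ∈ ((LocalEven.cj g E ⊓ Subgroup.centralizer ({z} : Set G)).subgroupOf
        (Subgroup.centralizer ({z} : Set G))).map θ, θ c * p * (θ c)⁻¹ ∈
      ((LocalEven.cj g E ⊓ Subgroup.centralizer ({z} : Set G)).subgroupOf
        (Subgroup.centralizer ({z} : Set G))).map θ := by
  have hcx : (c : G) * x = x * (c : G) := mul_inv_eq_iff_eq_mul.1 hc
  have hF := h.conjCore hg
  refine ⟨fun a ha => ⟨h.core.norm c (mem_cent_singleton.1 c.2) a ha.1, hF.norm c hcx a ha.2⟩, ?_⟩
  rintro _ ⟨r, hr, rfl⟩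
  refine ⟨c * r * c⁻¹, ⟨hF.norm c hcx r hr.1, (c * r * c⁻¹).2⟩, ?_⟩
  rw [map_mul, map_mul, map_inv]

include h hg hx hxz in
theorem not_short {v : ↥leechLattice} (hv : rep v x) : sqNorm v.1 ≠ 32 := by
  intro hn
  set A := E ⊓ LocalEven.cj g E with hA
  have hF := h.conjCore hg
  have hzF := h.z_mem hg hx
  have hxA : x ∈ A := ⟨hx, hF.mem⟩
  obtain ⟨hsq, -⟩ := h.inter_props hg hxz
  let W : AddSubgroup ↥leechLattice :=
    { carrier := {w | ∃ a ∈ A, rep w a}
      zero_mem' := ⟨1, one_mem _, (h.rep_one _).2 ⟨0, by simp⟩⟩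
      add_mem' := by
        rintro w u ⟨a, ha, haw⟩ ⟨b, hb, hbu⟩
        exact ⟨a * b, mul_mem ha hb, h.rep_mul haw hbu⟩
      neg_mem' := by
        rintro w ⟨a, ha, haw⟩
        refine ⟨a, ha, ?_⟩
        have := h.rep_dbl (w := -w) haw
        rwa [show w + (-w + -w) = -w by abel] at this }
  have hS : Sing v W := by
    refine ⟨fun w => ⟨1, one_mem _, (h.rep_one _).2 ⟨w, rfl⟩⟩, ⟨x, hxA, hv⟩,
      fun w ⟨a, ha, haw⟩ => (h.sq_iff haw).1 (hsq a ha), ?_⟩
    rintro k hk w ⟨a, ha, haw⟩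
    obtain ⟨c, hc, hcx⟩ := h.fix_lift hv hF.ne hxz (k := k) (by
      rcases hk with e | e
      · exact ⟨0, by simp [e]⟩
      · exact ⟨-v, by rw [e]; abel⟩)
    exact ⟨_, (h.inter_normalized hg hx hxz hcx).1 a ha, h.act c k hc haw⟩
  classical
  have hsub : (A : Set G) ⊆ ({1, z, x, x * z} : Finset G) := by
    classical
    intro a ha
    obtain ⟨w, hw⟩ := h.rep_total ha.1
    obtain ⟨u, e | e⟩ := hS.small hn ⟨a, ha, hw⟩ <;> rw [e] at hw
    · rcases (h.rep_eq ((h.rep_one _).2 ⟨u, rfl⟩)).1 hw with e' | e' <;> simp [e']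
    · rcases (h.rep_eq (h.rep_dbl hv)).1 hw with e' | e' <;> simp [e']
  classical
  have h4 : Nat.card ↥A ≤ 4 := by
    have := Set.ncard_le_ncard hsub
    rw [Set.ncard_coe_finset, ← Nat.card_coe_set_eq] at this
    exact this.trans Finset.card_le_four
  obtain ⟨P, -, hP, hle⟩ := h.inter_card hg hxz hzF
  have := hle.trans (Nat.mul_le_mul (card_twoGroup_le hP) h4)
  norm_num at this

include h hg hx hxz in
theorem long_rep : ∃ v : ↥leechLattice, sqNorm v.1 = 64 ∧ rep v x := by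
  have hF := h.conjCore hg
  obtain ⟨v, hn | hn, hv⟩ := h.involution_rep hx hF.sq hF.ne hxz
  · exact absurd hn (h.not_short hg hx hxz hv)
  · exact ⟨v, hn, hv⟩

include h hg hx hxz in
/-- The frame structure at a conjugate in the core. -/
theorem frame : ∃ k : ↥Co0, rep (k • e8 none) x ∧
    (∀ c : ↥(Subgroup.centralizer ({z} : Set G)), (c : G) * x * (c : G)⁻¹ = x →
      θ c ∈ (frameStab.map (QuotientGroup.mk' _)).map (MulAut.conj (QuotientGroup.mk k : Spor.Co1)).toMonoidHom) ∧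
    (∀ k' ∈ frameStab, ∃ c : ↥(Subgroup.centralizer ({z} : Set G)), (c : G) * x * (c : G)⁻¹ = x ∧
      θ c = MulAut.conj (QuotientGroup.mk k : Spor.Co1) (QuotientGroup.mk k')) ∧
    ((LocalEven.cj g E ⊓ Subgroup.centralizer ({z} : Set G)).subgroupOf
        (Subgroup.centralizer ({z} : Set G))).map θ =
      signImage.map (MulAut.conj (QuotientGroup.mk k : Spor.Co1)).toMonoidHom ∧
    Nat.card ↥(E ⊓ LocalEven.cj g E) = 2 ^ 13 := by
  obtain ⟨v, hn, hv⟩ := h.long_rep hg hx hxz
  obtain ⟨k, hk⟩ := co0_transitive (Or.inr (Or.inr rfl)) (sqNorm_e8 none) hn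
  have hzF := h.z_mem hg hx
  have hF := h.conjCore hg
  obtain ⟨P, hPdef, hP, hle⟩ := h.inter_card hg hxz hzF
  have hsee : ∀ c : ↥(Subgroup.centralizer ({z} : Set G)), (c : G) * x * (c : G)⁻¹ = x →
      θ c ∈ (frameStab.map (QuotientGroup.mk' _)).map (MulAut.conj (QuotientGroup.mk k : Spor.Co1)).toMonoidHom := by
    intro c hc
    obtain ⟨m, hm⟩ := QuotientGroup.mk_surjective (θ c)
    have := h.act c m hm.symm hv
    rw [hc] at this
    obtain ⟨u, hu⟩ := h.rep_inj hv this hF.sq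
    refine ⟨QuotientGroup.mk (k⁻¹ * m * k), ⟨k⁻¹ * m * k, ⟨k⁻¹ • u, ?_⟩, rfl⟩, ?_⟩
    · rw [mul_smul, mul_smul, hk, hu, co0_add, co0_add, ← hk, inv_smul_smul]
    · simp only [QuotientGroup.mk_mul, QuotientGroup.mk_inv, MulEquiv.coe_toMonoidHom, MulAut.conj_apply, ← hm]
      group
  have hlift : ∀ k' ∈ frameStab, ∃ c : ↥(Subgroup.centralizer ({z} : Set G)), (c : G) * x * (c : G)⁻¹ = x ∧
      θ c = MulAut.conj (QuotientGroup.mk k : Spor.Co1) (QuotientGroup.mk k') := by
    rintro k' ⟨u, hu⟩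
    obtain ⟨c, hc, hcx⟩ := h.fix_lift hv hF.ne hxz (k := k * k' * k⁻¹) ⟨k • u, by
      rw [mul_smul, mul_smul, inv_smul_eq_iff.2 hk.symm, hu, co0_add, co0_add, hk]⟩
    exact ⟨c, hcx, by rw [hc, QuotientGroup.mk_mul, QuotientGroup.mk_mul, QuotientGroup.mk_inv, MulAut.conj_apply]⟩
  have hPle : P ≤ signImage.map (MulAut.conj (QuotientGroup.mk k : Spor.Co1)).toMonoidHom := by
    have key : P.comap (MulAut.conj (QuotientGroup.mk k : Spor.Co1)).toMonoidHom ≤ signImage := by
      refine frame_twoGroup_le _ (hP.comap_of_injective _ (MulAut.conj _).injective) (fun p hp => ?_)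
        fun k' hk' p hp => ?_
      · change MulAut.conj (QuotientGroup.mk k : Spor.Co1) p ∈ P at hp
        rw [hPdef] at hp
        obtain ⟨r, hr, e⟩ := hp
        obtain ⟨y, hy, e'⟩ := hsee r (by
          rw [mul_inv_eq_iff_eq_mul]; exact hF.comm r hr.1)
        have : y = p := (MulAut.conj (QuotientGroup.mk k : Spor.Co1)).injective (e'.trans e)
        exact this ▸ hy
      · change MulAut.conj (QuotientGroup.mk k : Spor.Co1) _ ∈ P
        change MulAut.conj (QuotientGroup.mk k : Spor.Co1) p ∈ P at hp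
        obtain ⟨c, hcx, hc⟩ := hlift k' hk'
        rw [map_mul, map_mul, map_inv, ← hc, hPdef]
        rw [hPdef] at hp
        exact (h.inter_normalized hg hx hxz hcx).2 _ hp
    intro p hp
    obtain ⟨q, rfl⟩ := (MulAut.conj (QuotientGroup.mk k : Spor.Co1)).surjective p
    exact ⟨q, key hp, rfl⟩
  haveI : Finite ↥Co0 := Nat.finite_of_card_ne_zero (by rw [co0_card]; norm_num)
  have hsc : Nat.card ↥(signImage.map (MulAut.conj (QuotientGroup.mk k : Spor.Co1)).toMonoidHom) = 2 ^ 11 := by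
    rw [Subgroup.card_map_of_injective (MulAut.conj _).injective, signImage_card]
  have hP11 : Nat.card ↥P ≤ 2 ^ 11 := hsc ▸ Subgroup.card_le_of_le hPle
  have hA13 : Nat.card ↥(E ⊓ LocalEven.cj g E) ≤ 2 ^ 13 := by
    obtain ⟨hsq, hcomm⟩ := h.inter_props hg hxz
    exact h.abelian_card_le inf_le_left ⟨h.core.mem, hzF⟩ hcomm
  have hA : Nat.card ↥(E ⊓ LocalEven.cj g E) = 2 ^ 13 := by
    refine le_antisymm hA13 ?_
    have := Nat.mul_le_mul_right (Nat.card ↥(E ⊓ LocalEven.cj g E)) hP11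
    norm_num at this hle ⊢
    omega
  refine ⟨k, by rw [hk]; exact hv, hsee, hlift, ?_, hA⟩
  rw [← hPdef]
  refine Subgroup.eq_of_le_of_card_ge hPle ?_
  rw [hsc]
  rw [hA] at hle
  norm_num at hle ⊢
  omega

end fusion

end MQ

end Cfsg.Agent.Leech2
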