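import Cfsg.Agent.Leech2.QuadUnique

/-! Uniqueness of the invariant quadratic form, in terms of lattice automorphisms. -/

set_option autoImplicit false
open Cfsg Cfsg.Agent.Golay
open scoped Pointwise

namespace Cfsg.Agent.Leech2

/-- Squared length over sixteen, modulo two. -/
def stdForm (x : GolayPt → ℤ) : ZMod 2 := ((sqNorm x / 16 : ℤ) : ZMod 2)

theorem sqNorm_add (x y : GolayPt → ℤ) : sqNorm (x + y) = sqNorm x + sqNorm y + 2 * dotInt x y := by
  simp only [sqNorm, dotInt, Finset.mul_sum, ← Finset.sum_add_distrib]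
  exact Finset.sum_congr rfl fun p _ => by simp only [Pi.add_apply]; ring

theorem dot_add (x y z : GolayPt → ℤ) : dotInt (x + y) z = dotInt x z + dotInt y z := by
  simp only [dotInt, Pi.add_apply, add_mul, Finset.sum_add_distrib]

theorem dot_dvd {x y : GolayPt → ℤ} (hx : x ∈ leechLattice) (hy : y ∈ leechLattice) :
    (8 : ℤ) ∣ dotInt x y := by
  have := sqNorm_dvd (add_mem hx hy)
  rw [sqNorm_add] at this
  have := sqNorm_dvd hx
  have := sqNorm_dvd hy
  omega

theorem stdForm_inv : InvForm stdForm where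
  cong := by
    intro u w hu hw
    have hd := dot_dvd hu hw
    have h1 := sqNorm_dvd hu
    have h2 := sqNorm_dvd hw
    have e : sqNorm (u + (w + w)) = sqNorm u + 4 * sqNorm w + 4 * dotInt u w := by
      simp only [sqNorm, dotInt, Finset.mul_sum, ← Finset.sum_add_distrib]
      exact Finset.sum_congr rfl fun p _ => by simp only [Pi.add_apply]; ring
    unfold stdForm
    rw [ZMod.intCast_eq_intCast_iff_dvd_sub, e]
    push_cast
    omega
  quad := by
    intro u v w hu hv hw
    have := sqNorm_dvd hu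
    have := sqNorm_dvd hv
    have := sqNorm_dvd hw
    have := dot_dvd hu hv
    have := dot_dvd hu hw
    have := dot_dvd hv hw
    unfold stdForm
    simp only [← Int.cast_add]
    rw [ZMod.intCast_eq_intCast_iff_dvd_sub, sqNorm_add (u + v) w, sqNorm_add u v, sqNorm_add u w,
      sqNorm_add v w, dot_add]
    push_cast
    omega
  perm := by
    intro σ x _ _
    unfold stdForm sqNorm
    rw [Equiv.sum_comp σ fun p => x p ^ 2]
  sign := by
    intro C x _ _
    unfold stdForm sqNorm
    rw [Finset.sum_congr rfl fun p _ => show flipSign C x p ^ 2 = x p ^ 2 by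
      simp only [flipSign]; split_ifs <;> ring]
  tetInv := by
    intro x hx
    unfold stdForm
    rw [xi_norm hx]

/-- An automorphism of the lattice from an invertible isometry of the ambient group. -/
def autOf (f g : (GolayPt → ℤ) → GolayPt → ℤ)
    (hf : ∀ x ∈ leechLattice, f x ∈ leechLattice) (hg : ∀ x ∈ leechLattice, g x ∈ leechLattice)
    (hgf : ∀ x ∈ leechLattice, g (f x) = x) (hfg : ∀ x ∈ leechLattice, f (g x) = x) :
    Equiv.Perm leechLattice where
  toFun v := ⟨f v.1, hf _ v.2⟩
  invFun v := ⟨g v.1, hg _ v.2⟩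
  left_inv v := Subtype.ext (hgf _ v.2)
  right_inv v := Subtype.ext (hfg _ v.2)

open Classical in
/-- Extension by zero of a function on the lattice. -/
noncomputable def extend (Q : ↥leechLattice → ZMod 2) (x : GolayPt → ℤ) : ZMod 2 :=
  if h : x ∈ leechLattice then Q ⟨x, h⟩ else 0

theorem extend_apply (Q : ↥leechLattice → ZMod 2) {x : GolayPt → ℤ} (h : x ∈ leechLattice) :
    extend Q x = Q ⟨x, h⟩ := dif_pos h

theorem invForm_of (Q : ↥leechLattice → ZMod 2)
    (hcoset : ∀ v w : ↥leechLattice, Q (v + (w + w)) = Q v)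
    (hquad : ∀ u v w : ↥leechLattice, Q (u + v + w) + Q u + Q v + Q w = Q (u + v) + Q (u + w) + Q (v + w))
    (hinv : ∀ (g : ↥Co0) (v : ↥leechLattice), Q (g • v) = Q v) : InvForm (extend Q) where
  cong := by
    intro u w hu hw
    rw [extend_apply Q (add_mem hu (add_mem hw hw)), extend_apply Q hu]
    exact hcoset ⟨u, hu⟩ ⟨w, hw⟩
  quad := by
    intro u v w hu hv hw
    rw [extend_apply Q (add_mem (add_mem hu hv) hw), extend_apply Q hu, extend_apply Q hv,
      extend_apply Q hw, extend_apply Q (add_mem hu hv), extend_apply Q (add_mem hu hw),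
      extend_apply Q (add_mem hv hw)]
    exact hquad ⟨u, hu⟩ ⟨v, hv⟩ ⟨w, hw⟩
  perm := by
    intro σ x hσ hx
    let e := autOf (fun y p => y (σ p)) (fun y p => y (σ.symm p)) (fun y hy => perm_mem_leech hσ hy)
      (fun y hy => perm_mem_leech (inv_mem hσ) hy) (fun y _ => by simp) (fun y _ => by simp)
    have he : e ∈ Co0 := ⟨fun _ _ => Subtype.ext (funext fun _ => rfl), fun v => by
      show sqNorm (fun p => v.1 (σ p)) = sqNorm v.1
      rw [sqNorm, sqNorm, Equiv.sum_comp σ fun p => v.1 p ^ 2]⟩
    rw [extend_apply Q hx, extend_apply Q (perm_mem_leech hσ hx)]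
    exact hinv ⟨e, he⟩ ⟨x, hx⟩
  sign := by
    intro C x hC hx
    have hinvol : ∀ y, flipSign C (flipSign C y) = y := fun y => funext fun p => by
      simp only [flipSign]; split_ifs <;> simp
    let e := autOf (flipSign C) (flipSign C) (fun y hy => sign_mem_leech hC hy)
      (fun y hy => sign_mem_leech hC hy) (fun y _ => hinvol y) (fun y _ => hinvol y)
    have he : e ∈ Co0 := ⟨fun v w => Subtype.ext (funext fun p => by
      show flipSign C (v.1 + w.1) p = flipSign C v.1 p + flipSign C w.1 p
      simp only [flipSign, Pi.add_apply]; split_ifs <;> ring), fun v => by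
      show sqNorm (flipSign C v.1) = sqNorm v.1
      rw [sqNorm, sqNorm]
      exact Finset.sum_congr rfl fun p _ => by simp only [flipSign]; split_ifs <;> ring⟩
    rw [extend_apply Q hx, extend_apply Q (x := flipSign C x) (sign_mem_leech hC hx)]
    exact hinv ⟨e, he⟩ ⟨x, hx⟩
  tetInv := by
    intro x hx
    let e := autOf xiMap xiMap (fun y hy => xi_mem hy) (fun y hy => xi_mem hy) (fun y hy => xi_xi hy)
      (fun y hy => xi_xi hy)
    have he : e ∈ Co0 := ⟨fun v w => Subtype.ext (xi_add v.2 w.2), fun v => xi_norm v.2⟩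
    rw [extend_apply Q hx, extend_apply Q (xi_mem hx)]
    exact hinv ⟨e, he⟩ ⟨x, hx⟩

theorem leech_quadratic_unique (Q : ↥leechLattice → ZMod 2)
    (hcoset : ∀ v w : ↥leechLattice, Q (v + (w + w)) = Q v)
    (hquad : ∀ u v w : ↥leechLattice, Q (u + v + w) + Q u + Q v + Q w = Q (u + v) + Q (u + w) + Q (v + w))
    (hinv : ∀ (g : ↥Co0) (v : ↥leechLattice), Q (g • v) = Q v)
    (hne : ∃ v : ↥leechLattice, Q v ≠ 0) (v : ↥leechLattice) :
    Q v = ((sqNorm (v : GolayPt → ℤ) / 16 : ℤ) : ZMod 2) := by
  have hA := invForm_of Q hcoset hquad hinv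
  have hB := stdForm_inv
  set κ := pol (extend Q) (sv 2 (bset 9347075)) (sv 4 {pt 0, pt 2}) with hκ
  have hC : InvForm (fun x => extend Q x + κ * stdForm x) :=
    { cong := fun hu hw => by show _ + _ = _ + _; rw [hA.cong hu hw, hB.cong hu hw]
      quad := fun {u v w} hu hv hw => by
        linear_combination (hA.quad hu hv hw) + κ * (hB.quad hu hv hw)
      perm := fun hσ hx => by show _ + _ = _ + _; rw [hA.perm hσ hx, hB.perm hσ hx]
      sign := fun hCc hx => by show _ + _ = _ + _; rw [hA.sign hCc hx, hB.sign hCc hx]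
      tetInv := fun hx => by show _ + _ = _ + _; rw [hA.tetInv hx, hB.tetInv hx] }
  have hstd : pol stdForm (sv 2 (bset 9347075)) (sv 4 {pt 0, pt 2}) = 1 := by decide +kernel
  have h0 := hC.eq_zero (by
    have e : pol (fun x => extend Q x + κ * stdForm x) (sv 2 (bset 9347075)) (sv 4 {pt 0, pt 2}) =
        κ + κ * pol stdForm (sv 2 (bset 9347075)) (sv 4 {pt 0, pt 2}) := by
      rw [hκ]; simp only [pol]; ring
    rw [e, hstd, mul_one, CharTwo.add_self_eq_zero])
  have key : ∀ w : ↥leechLattice, Q w = κ * stdForm w.1 := fun w => by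
    have := h0 _ w.2
    simp only [extend_apply Q w.2] at this
    exact CharTwo.add_eq_zero.1 this
  have hκ1 : κ = 1 := by
    rcases (by decide : ∀ z : ZMod 2, z = 0 ∨ z = 1) κ with e | e
    · obtain ⟨w, hw⟩ := hne
      exact absurd (by rw [key w, e, zero_mul]) hw
    · exact e
  rw [key v, hκ1, one_mul]
  rfl

end Cfsg.Agent.Leech2
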