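import Cfsg.Agent.Leech2.Tetrad
import Cfsg.Agent.M24Orbits.SixSets
import Cfsg.Agent.M24Orbits.Objects

/-! The invariant quadratic form on the lattice modulo two is unique. -/

set_option autoImplicit false
open Cfsg Cfsg.Agent.Golay
open scoped Pointwise

namespace Cfsg.Agent.Leech2

/-- Constant `a` on `s`, zero elsewhere. -/
def sv (a : ℤ) (s : Finset GolayPt) : GolayPt → ℤ := fun p => if p ∈ s then a else 0

/-- Flip signs on a set. -/
def flipSign (C : Finset GolayPt) (x : GolayPt → ℤ) : GolayPt → ℤ := fun p => if p ∈ C then -x p else x p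

/-- The odd reference vector. -/
def oddVec : GolayPt → ℤ := fun p => if p = none then -3 else 1

/-- Invariant forms. -/
structure InvForm (R : (GolayPt → ℤ) → ZMod 2) : Prop where
  cong : ∀ {u w}, u ∈ leechLattice → w ∈ leechLattice → R (u + (w + w)) = R u
  quad : ∀ {u v w}, u ∈ leechLattice → v ∈ leechLattice → w ∈ leechLattice →
    R (u + v + w) + R u + R v + R w = R (u + v) + R (u + w) + R (v + w)
  perm : ∀ {σ : Equiv.Perm GolayPt} {x}, σ ∈ M24 → x ∈ leechLattice → R (fun p => x (σ p)) = R x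
  sign : ∀ {C x}, C ∈ supports (golayCode : Set (GolayPt → ZMod 2)) → x ∈ leechLattice →
    R (flipSign C x) = R x
  tetInv : ∀ {x}, x ∈ leechLattice → R (xiMap x) = R x

/-- Polar form. -/
def pol (R : (GolayPt → ℤ) → ZMod 2) (u w : GolayPt → ℤ) : ZMod 2 := R (u + w) + R u + R w

theorem sv_four_mem {s : Finset GolayPt} (h : s.card % 2 = 0) : sv 4 s ∈ leechLattice := by
  rw [mem_leech_iff]
  refine ⟨0, sv 2 s, fun p => by simp only [sv]; split_ifs <;> norm_num, ?_, ?_⟩
  · have : red2 (sv 2 s) = 0 := by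
      funext p; simp only [red2, sv]; split_ifs <;> simp <;> rfl
    rw [this]; exact zero_mem _
  · have : ∑ p, sv 4 s p = 4 * (s.card : ℤ) := by
      simp [sv, mul_comm]
    rw [this]; omega

theorem e8_mem (i : GolayPt) : sv 8 {i} ∈ leechLattice := by
  rw [mem_leech_iff]
  refine ⟨0, sv 4 {i}, fun p => by simp only [sv]; split_ifs <;> norm_num, ?_, ?_⟩
  · have : red2 (sv 4 {i}) = 0 := by
      funext p; simp only [red2, sv]; split_ifs <;> simp <;> rfl
    rw [this]; exact zero_mem _
  · simp [sv]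

theorem two_mem {C : Finset GolayPt} (hC : C ∈ supports (golayCode : Set (GolayPt → ZMod 2))) :
    sv 2 C ∈ leechLattice := by
  rw [mem_leech_iff]
  refine ⟨0, sv 1 C, fun p => by simp only [sv]; split_ifs <;> norm_num, ?_, ?_⟩
  · have : red2 (sv 1 C) = wordOf (mask C) := by
      funext p
      simp only [red2, sv, wordOf, testBit_mask, decide_eq_true_eq]
      split_ifs <;> simp
    rw [this]; exact wordOf_mem (mem_supports_iff.1 hC)
  · have h1 : ∑ p, sv 2 C p = 2 * (C.card : ℤ) := by simp [sv, mul_comm]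
    rw [h1]
    rcases card_of_mem_supports hC with h | h | h | h | h <;> rw [h] <;> norm_num

theorem oddVec_mem : oddVec ∈ leechLattice := by
  rw [mem_leech_iff]
  refine ⟨1, fun p => if p = none then -2 else 0, fun p => by simp only [oddVec]; split_ifs <;> norm_num, ?_, ?_⟩
  · have : red2 (fun p => if p = none then -2 else 0) = 0 := by
      funext p; simp only [red2]; split_ifs <;> simp <;> rfl
    rw [this]; exact zero_mem _
  · decide +kernel

theorem z2_add : ∀ a b c d e f g : ZMod 2, a + b + c + d = e + f + g →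
    a + e + d = (f + b + d) + (g + c + d) := by decide

variable {R : (GolayPt → ℤ) → ZMod 2}

theorem InvForm.zero (h : InvForm R) : R 0 = 0 := by
  have := h.quad (zero_mem leechLattice) (zero_mem _) (zero_mem _)
  simp only [add_zero] at this
  revert this
  generalize R 0 = a
  revert a
  decide

theorem InvForm.pol_comm (_h : InvForm R) (u w : GolayPt → ℤ) : pol R u w = pol R w u := by
  simp only [pol, add_comm u w]; ring

theorem InvForm.pol_add (h : InvForm R) {u v w : GolayPt → ℤ} (hu : u ∈ leechLattice)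
    (hv : v ∈ leechLattice) (hw : w ∈ leechLattice) : pol R (u + v) w = pol R u w + pol R v w :=
  z2_add _ _ _ _ _ _ _ (h.quad hu hv hw)

theorem InvForm.pol_add_right (h : InvForm R) {u v w : GolayPt → ℤ} (hu : u ∈ leechLattice)
    (hv : v ∈ leechLattice) (hw : w ∈ leechLattice) : pol R u (v + w) = pol R u v + pol R u w := by
  rw [h.pol_comm, h.pol_add hv hw hu, h.pol_comm v u, h.pol_comm w u]

theorem InvForm.R_add (_h : InvForm R) (u w : GolayPt → ℤ) : R (u + w) = R u + R w + pol R u w := by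
  simp only [pol]
  linear_combination -(CharTwo.add_self_eq_zero (R u)) - (CharTwo.add_self_eq_zero (R w))

theorem InvForm.cong' (h : InvForm R) {u u' w : GolayPt → ℤ} (hu' : u' ∈ leechLattice)
    (hw : w ∈ leechLattice) (e : ∀ p, u p = u' p + 2 * w p) : R u = R u' := by
  rw [show u = u' + (w + w) from funext fun p => by rw [e p]; simp only [Pi.add_apply]; ring]
  exact h.cong hu' hw

theorem InvForm.pol_cong (h : InvForm R) {u u' w x : GolayPt → ℤ} (hu' : u' ∈ leechLattice)
    (hw : w ∈ leechLattice) (hx : x ∈ leechLattice) (e : ∀ p, u p = u' p + 2 * w p) :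
    pol R x u = pol R x u' := by
  simp only [pol]
  rw [h.cong' hu' hw e, h.cong' (u := x + u) (add_mem hx hu') hw
    (fun p => by simp only [Pi.add_apply, e p]; ring)]

theorem InvForm.pol_zero (h : InvForm R) {x : GolayPt → ℤ} (_hx : x ∈ leechLattice) : pol R x 0 = 0 := by
  simp [pol, h.zero, CharTwo.add_self_eq_zero]

theorem InvForm.pol_perm (h : InvForm R) {σ : Equiv.Perm GolayPt} (hσ : σ ∈ M24) {x y : GolayPt → ℤ}
    (hx : x ∈ leechLattice) (hy : y ∈ leechLattice) :
    pol R (fun p => x (σ p)) (fun p => y (σ p)) = pol R x y := by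
  simp only [pol]
  rw [show ((fun p => x (σ p)) + fun p => y (σ p)) = fun p => (x + y) (σ p) from rfl,
    h.perm hσ (add_mem hx hy), h.perm hσ hx, h.perm hσ hy]

theorem InvForm.pol_sign (h : InvForm R) {C : Finset GolayPt}
    (hC : C ∈ supports (golayCode : Set (GolayPt → ZMod 2))) {x y : GolayPt → ℤ}
    (hx : x ∈ leechLattice) (hy : y ∈ leechLattice) :
    pol R (flipSign C x) (flipSign C y) = pol R x y := by
  simp only [pol]
  rw [show flipSign C x + flipSign C y = flipSign C (x + y) from funext fun p => by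
      simp only [flipSign, Pi.add_apply]; split_ifs <;> ring,
    h.sign hC (add_mem hx hy), h.sign hC hx, h.sign hC hy]

theorem sv_perm (a : ℤ) (s : Finset GolayPt) (σ : Equiv.Perm GolayPt) :
    (fun p => sv a s (σ p)) = sv a (σ⁻¹ • s) := by
  funext p
  simp only [sv, Finset.mem_inv_smul_finset_iff, Equiv.Perm.smul_def]

theorem base_sep : ∃ C, C ∈ supports (golayCode : Set (GolayPt → ZMod 2)) ∧ pt 0 ∈ C ∧ pt 2 ∉ C :=
  ⟨bset 9347075, bset_mem_supports (by decide +kernel), by decide +kernel, by decide +kernel⟩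

theorem exists_sep {i j : GolayPt} (hij : i ≠ j) :
    ∃ C, C ∈ supports (golayCode : Set (GolayPt → ZMod 2)) ∧ i ∈ C ∧ j ∉ C := by
  obtain ⟨C, hC, h0, h2⟩ := base_sep
  obtain ⟨g, hg, e0, e2⟩ := exists_mem_M24_two (p := pt 0) (q := pt 2) (by decide +kernel) hij
  refine ⟨g • C, smul_mem_supports hg hC, ?_, ?_⟩
  · rw [← e0]; exact Finset.smul_mem_smul_finset h0
  · rw [← e2]; exact fun h => h2 ((Finset.smul_mem_smul_finset_iff g).1 h)

theorem octad_in_out {o : Finset GolayPt} (ho : o ∈ octads) {i j i' j' : GolayPt} (hi : i ∈ o)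
    (hj : j ∉ o) (hi' : i' ∈ o) (hj' : j' ∉ o) :
    ∃ g ∈ M24, g • o = o ∧ g i = i' ∧ g j = j' := by
  classical
  have hfive : ∀ a ∈ o, ∃ l : List GolayPt, l.length = 4 ∧ (a :: l).Nodup ∧ ∀ b ∈ l, b ∈ o := by
    intro a ha
    obtain ⟨t, ht, htc⟩ := Finset.exists_subset_card_eq (s := o.erase a) (n := 4)
      (by rw [Finset.card_erase_of_mem ha, card_octad ho]; norm_num)
    refine ⟨t.toList, by rw [Finset.length_toList, htc], List.nodup_cons.2 ⟨fun h => ?_, t.nodup_toList⟩,
      fun b hb => Finset.mem_of_mem_erase (ht (Finset.mem_toList.1 hb))⟩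
    exact (Finset.mem_erase.1 (ht (Finset.mem_toList.1 h))).1 rfl
  have mk : ∀ a b, a ∈ o → b ∉ o → ∃ x : Fin 6 ↪ GolayPt, x 0 = a ∧ x 5 = b ∧
      ¬ M24Orbits.Special x ∧ ∀ k : Fin 5, x k.castSucc ∈ o := by
    intro a b ha hb
    obtain ⟨l, hl, hnd, hlo⟩ := hfive a ha
    obtain ⟨l1, l2, l3, l4, rfl⟩ : ∃ l1 l2 l3 l4, l = [l1, l2, l3, l4] := by
      match l, hl with
      | [l1, l2, l3, l4], _ => exact ⟨l1, l2, l3, l4, rfl⟩
    have hnd6 : [a, l1, l2, l3, l4, b].Nodup := by
      rw [show [a, l1, l2, l3, l4, b] = [a, l1, l2, l3, l4] ++ [b] from rfl,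
        List.nodup_append]
      refine ⟨hnd, List.nodup_singleton b, fun p hp q hq => ?_⟩
      rw [List.mem_singleton] at hq
      subst hq
      rintro rfl
      rcases List.mem_cons.1 hp with rfl | hp
      · exact hb ha
      · exact hb (hlo _ hp)
    have hin : ∀ k : Fin 5, [a, l1, l2, l3, l4, b].get (Fin.castSucc k) ∈ o := by
      intro k
      fin_cases k
      · exact ha
      all_goals exact hlo _ (by simp)
    refine ⟨⟨fun k => [a, l1, l2, l3, l4, b].get k, fun p q e => (List.nodup_iff_injective_get.1 hnd6) e⟩,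
      rfl, rfl, ?_, hin⟩
    rintro ⟨o', ho', h'⟩
    have : o' = o := by
      refine octad_eq_of_five_le ho' ho ?_
      refine le_trans (le_of_eq (Finset.card_fin 5).symm) (Finset.card_le_card_of_injOn
        (fun k : Fin 5 => [a, l1, l2, l3, l4, b].get (Fin.castSucc k)) (fun k _ => ?_) ?_)
      · exact Finset.mem_inter.2 ⟨h' k.castSucc, hin k⟩
      · exact fun p _ q _ e => Fin.castSucc_injective _ ((List.nodup_iff_injective_get.1 hnd6) e)
    exact hb (this ▸ h' 5)
  obtain ⟨x, hx0, hx5, hxs, hxo⟩ := mk i j hi hj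
  obtain ⟨y, hy0, hy5, hys, hyo⟩ := mk i' j' hi' hj'
  obtain ⟨g, hg, hgi⟩ := M24Orbits.six_move x y (iff_of_false hxs hys)
  refine ⟨g, hg, ?_, by rw [← hx0, hgi, hy0], by rw [← hx5, hgi, hy5]⟩
  refine octad_eq_of_five_le (smul_mem_octads hg ho) ho ?_
  refine le_trans (le_of_eq (Finset.card_fin 5).symm) (Finset.card_le_card_of_injOn
    (fun k : Fin 5 => y k.castSucc) (fun k _ => ?_) ?_)
  · refine Finset.mem_inter.2 ⟨?_, hyo k⟩
    show y k.castSucc ∈ g • o
    rw [← hgi]; exact Finset.smul_mem_smul_finset (hxo k)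
  · exact fun p _ q _ e => Fin.castSucc_injective _ (y.injective e)

/-- Lattice vectors with all coordinates divisible by four. -/
def IsFour (x : GolayPt → ℤ) : Prop := x ∈ leechLattice ∧ ∀ p, (4 : ℤ) ∣ x p

theorem four_gen (H : AddSubgroup (GolayPt → ℤ)) (a : GolayPt) (h8 : sv 8 {a} ∈ H)
    (hP : ∀ p, p ≠ a → sv 4 {p, a} ∈ H) {x : GolayPt → ℤ} (hx : IsFour x) : x ∈ H := by
  classical
  obtain ⟨hxL, h4⟩ := hx
  choose z hz using h4
  obtain ⟨m, y, hy, -, hs⟩ := mem_leech_iff.1 hxL
  have hm : (2 : ℤ) ∣ m := by have := hy a; have := hz a; omega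
  have hsum : ∑ p, x p = 4 * ∑ p, z p := by
    rw [Finset.mul_sum]; exact Finset.sum_congr rfl fun p _ => hz p
  have hzev : (2 : ℤ) ∣ ∑ p, z p := by omega
  obtain ⟨k, hk⟩ := hzev
  let g : GolayPt → GolayPt → ℤ := fun p => if p = a then sv 8 {a} else sv 4 {p, a}
  have hg : ∀ p, g p ∈ H := fun p => by
    by_cases e : p = a
    · simp only [g, e, if_true]; exact h8
    · simp only [g, e, if_false]; exact hP p e
  have he : x = ∑ p, z p • g p - k • sv 8 {a} := by
    funext r
    rw [Pi.sub_apply, Finset.sum_apply, Pi.smul_apply, hz r]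
    have hterm : ∀ p, (z p • g p) r = z p * 4 * (if r = p then 1 else 0) +
        z p * 4 * (if r = a then 1 else 0) := by
      intro p
      simp only [g, Pi.smul_apply, smul_eq_mul]
      by_cases e : p = a
      · subst e
        simp only [if_true, sv, Finset.mem_singleton]
        split_ifs <;> ring
      · simp only [e, if_false, sv, Finset.mem_insert, Finset.mem_singleton]
        by_cases e1 : r = p
        · subst e1; simp [e]
        · simp [e1]
    rw [Finset.sum_congr rfl fun p _ => hterm p, Finset.sum_add_distrib, ← Finset.sum_mul,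
      ← Finset.sum_mul, hk]
    simp only [mul_ite, mul_one, mul_zero, Finset.sum_ite_eq, Finset.mem_univ, if_true, sv,
      Finset.mem_singleton, smul_eq_mul]
    split_ifs <;> ring
  rw [he]
  exact H.sub_mem (H.sum_mem fun p _ => H.zsmul_mem (hg p) _) (H.zsmul_mem h8 _)

theorem InvForm.rad (h : InvForm R) {x : GolayPt → ℤ} (hx : x ∈ leechLattice) :
    ∃ H : AddSubgroup (GolayPt → ℤ), ∀ y, y ∈ H ↔ y ∈ leechLattice ∧ pol R x y = 0 := by
  refine ⟨{ carrier := {y | y ∈ leechLattice ∧ pol R x y = 0}, zero_mem' := ?_, add_mem' := ?_,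
            neg_mem' := ?_ }, fun _ => Iff.rfl⟩
  · rintro a b ⟨ha, ha'⟩ ⟨hb, hb'⟩
    exact ⟨add_mem ha hb, by rw [h.pol_add_right hx ha hb, ha', hb', add_zero]⟩
  · exact ⟨zero_mem _, h.pol_zero hx⟩
  · rintro a ⟨ha, ha'⟩
    refine ⟨neg_mem ha, ?_⟩
    have := h.pol_add_right hx ha (neg_mem ha)
    rw [add_neg_cancel, h.pol_zero hx, ha', zero_add] at this
    exact this.symm

/-- Even vectors split as twice a code word plus a vector divisible by four. -/
theorem even_split {x : GolayPt → ℤ} (hx : x ∈ leechLattice) (hev : ∀ p, (2 : ℤ) ∣ x p) :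
    ∃ C, C ∈ supports (golayCode : Set (GolayPt → ZMod 2)) ∧ IsFour (x - sv 2 C) := by
  obtain ⟨m, y, hy, hw, -⟩ := mem_leech_iff.1 hx
  obtain ⟨k, hk⟩ : (2 : ℤ) ∣ m := by have := hy none; have := hev none; omega
  have hw' : red2 (fun p => k + y p) ∈ golayCode := by
    have e : red2 (fun p => k + y p) = red2 y + (k : ZMod 2) • 1 := by
      funext p; simp [red2]; ring
    rw [e]; exact add_mem hw (Submodule.smul_mem _ _ one_mem_golayCode)
  refine ⟨support₂ (red2 (fun p => k + y p)), ⟨_, hw', rfl⟩, ?_⟩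
  refine ⟨sub_mem hx (two_mem ⟨_, hw', rfl⟩), fun p => ?_⟩
  simp only [Pi.sub_apply, sv, support₂_red2, Finset.mem_filter, Finset.mem_univ, true_and]
  have := hy p
  split_ifs <;> omega

theorem two_symmDiff {C C' : Finset GolayPt} (hC : C ∈ supports (golayCode : Set (GolayPt → ZMod 2)))
    (hC' : C' ∈ supports (golayCode : Set (GolayPt → ZMod 2))) :
    IsFour (sv 2 C + sv 2 C' - sv 2 (symmDiff C C')) := by
  refine ⟨sub_mem (add_mem (two_mem hC) (two_mem hC')) (two_mem (symmDiff_mem_supports hC hC')), fun p => ?_⟩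
  simp only [Pi.add_apply, Pi.sub_apply, sv, Finset.mem_symmDiff]
  by_cases a : p ∈ C <;> by_cases b : p ∈ C' <;> simp [a, b]

theorem rows_octads : ∀ r ∈ rows, inC r = true ∧ pc r = 8 := by decide +kernel

theorem code_gen (P : Finset GolayPt → Prop) (h0 : P ∅)
    (hoct : ∀ o ∈ octads, P o)
    (hadd : ∀ C C', C ∈ supports (golayCode : Set (GolayPt → ZMod 2)) →
      C' ∈ supports (golayCode : Set (GolayPt → ZMod 2)) → P C → P C' → P (symmDiff C C'))
    {C : Finset GolayPt} (hC : C ∈ supports (golayCode : Set (GolayPt → ZMod 2))) : P C := by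
  have aux : ∀ (l : List ℕ), (∀ r ∈ l, inC r = true ∧ pc r = 8) → ∀ i,
      inC (encAux l i) = true ∧ P (bset (encAux l i)) := by
    intro l
    induction l with
    | nil => intro _ i; exact ⟨inC_zero, by rw [encAux, bset_zero]; exact h0⟩
    | cons r rs ih =>
      intro hl i
      obtain ⟨h1, h2⟩ := ih (fun x hx => hl x (by simp [hx])) (i / 2)
      obtain ⟨hr1, hr2⟩ := hl r (by simp)
      rw [encAux]
      cases (i % 2 == 1)
      · simpa using ⟨h1, h2⟩
      · refine ⟨inC_xor hr1 h1, ?_⟩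
        simp only [cond_true, bset_xor]
        exact hadd _ _ (bset_mem_supports hr1) (bset_mem_supports h1)
          (hoct _ (M24Orbits.octad_of_mask (by simp [hr1, hr2]))) h2
  obtain ⟨i, -, hi⟩ := inC_eq_encode (mem_supports_iff.1 hC)
  have := (aux rows rows_octads i).2
  rwa [show encAux rows i = mask C from hi, bset_mask] at this

theorem pair_card {i j : GolayPt} (h : i ≠ j) : ({i, j} : Finset GolayPt).card % 2 = 0 := by
  rw [Finset.card_pair h]

theorem InvForm.pol_four (h : InvForm R) {a : GolayPt} {x : GolayPt → ℤ} (hx : x ∈ leechLattice)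
    (h8 : pol R x (sv 8 {a}) = 0) (hP : ∀ p, p ≠ a → pol R x (sv 4 {p, a}) = 0)
    {d : GolayPt → ℤ} (hd : IsFour d) : pol R x d = 0 := by
  obtain ⟨H, hH⟩ := h.rad hx
  exact ((hH d).1 (four_gen H a ((hH _).2 ⟨e8_mem a, h8⟩)
    (fun p hp => (hH _).2 ⟨sv_four_mem (pair_card hp), hP p hp⟩) hd)).2

theorem InvForm.eq_zero (h : InvForm R)
    (hnorm : pol R (sv 2 (bset 9347075)) (sv 4 {pt 0, pt 2}) = 0) :
    ∀ x ∈ leechLattice, R x = 0 := by
  classical
  set e8 : GolayPt → GolayPt → ℤ := fun i => sv 8 {i} with he8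
  have he8m : ∀ i, e8 i ∈ leechLattice := e8_mem
  have hPm : ∀ {i j : GolayPt}, i ≠ j → sv 4 {i, j} ∈ leechLattice := fun hij => sv_four_mem (pair_card hij)
  -- congruences between the eights
  have e8R : ∀ i j, R (e8 i) = R (e8 j) ∧ ∀ x ∈ leechLattice, pol R x (e8 i) = pol R x (e8 j) := by
    intro i j
    by_cases hij : i = j
    · subst hij; exact ⟨rfl, fun _ _ => rfl⟩
    have hw : sv 4 {i, j} - e8 j ∈ leechLattice := sub_mem (hPm hij) (he8m j)
    have e : ∀ p, e8 i p = e8 j p + 2 * (sv 4 {i, j} - e8 j) p := by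
      intro p
      simp only [he8, Pi.sub_apply, sv, Finset.mem_insert, Finset.mem_singleton]
      by_cases a : p = i
      · subst a; simp [hij]
      · by_cases b : p = j
        · subst b; simp [a]
        · simp [a, b]
    exact ⟨h.cong' (he8m j) hw e, fun x hx => h.pol_cong (he8m j) hw hx e⟩
  -- pairs
  have hα : ∀ {i j k l : GolayPt}, i ≠ j → k ≠ l → R (sv 4 {i, j}) = R (sv 4 {k, l}) := by
    intro i j k l hij hkl
    obtain ⟨σ, hσ, e1, e2⟩ := exists_mem_M24_two hij hkl
    rw [← h.perm hσ (hPm hkl), sv_perm]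
    congr 2
    rw [eq_inv_smul_iff, Finset.smul_finset_insert, Finset.smul_finset_singleton, Equiv.Perm.smul_def,
      Equiv.Perm.smul_def, e1, e2]
  have hsh : ∀ {i j : GolayPt}, i ≠ j → R (sv 4 {i, j} + e8 i) = R (sv 4 {i, j}) := by
    intro i j hij
    obtain ⟨C, hC, hiC, hjC⟩ := exists_sep hij
    rw [h.cong' (u := sv 4 {i, j} + e8 i) (u' := flipSign C (sv 4 {i, j})) (w := e8 i) ?_ (he8m i) ?_]
    · exact h.sign hC (hPm hij)
    · exact sign_mem_leech hC (hPm hij)
    · intro p
      simp only [he8, Pi.add_apply, flipSign, sv, Finset.mem_insert, Finset.mem_singleton]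
      by_cases a : p = i
      · subst a; simp [hiC]
      · by_cases b : p = j
        · subst b; simp [a, hjC]
        · simp [a, b]
  obtain ⟨γ, hγ⟩ : ∃ γ, ∀ i, R (e8 i) = γ := ⟨R (e8 none), fun i => (e8R i none).1⟩
  have hP8 : ∀ {i j : GolayPt}, i ≠ j → ∀ k, pol R (sv 4 {i, j}) (e8 k) = γ := by
    intro i j hij k
    rw [(e8R k i).2 _ (hPm hij)]
    show R _ + _ + _ = γ
    rw [hsh hij, CharTwo.add_self_eq_zero, zero_add, hγ]
  have hsum3 : ∀ {i j k : GolayPt}, i ≠ j → i ≠ k → j ≠ k →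
      sv 4 {i, j} + sv 4 {i, k} = e8 i + sv 4 {j, k} := by
    intro i j k hij hik hjk
    funext p
    simp only [he8, Pi.add_apply, sv, Finset.mem_insert, Finset.mem_singleton]
    by_cases a : p = i
    · subst a; simp [hij, hik]
    · by_cases b : p = j
      · subst b; simp [a, hjk]
      · simp [a, b]
  have hshare : ∀ {i j k : GolayPt}, i ≠ j → i ≠ k → j ≠ k →
      pol R (sv 4 {i, j}) (sv 4 {i, k}) = R (sv 4 {i, j}) := by
    intro i j k hij hik hjk
    show R _ + _ + _ = _
    rw [hsum3 hij hik hjk, h.R_add, h.pol_comm, hP8 hjk, hγ, hα hjk hij, hα hik hij]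
    linear_combination CharTwo.add_self_eq_zero γ + CharTwo.add_self_eq_zero (R (sv 4 {i, j}))
  have hγ0 : γ = 0 := by
    obtain ⟨i, j, k, hij, hik, hjk⟩ : ∃ i j k : GolayPt, i ≠ j ∧ i ≠ k ∧ j ≠ k :=
      ⟨pt 0, pt 1, pt 2, by decide +kernel⟩
    have e : sv 4 {i, k} + sv 4 {j, k} = sv 4 {i, j} + e8 k := by
      rw [add_comm (sv 4 {i, j}), Finset.pair_comm i k, Finset.pair_comm j k, hsum3 hik.symm hjk.symm hij]
    have h2 := congrArg (fun t => pol R (sv 4 {i, j}) t) e
    simp only [h.pol_add_right (hPm hij) (hPm hik) (hPm hjk),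
      h.pol_add_right (hPm hij) (hPm hij) (he8m k), hP8 hij] at h2
    rw [hshare hij hik hjk, Finset.pair_comm i j, hshare hij.symm hjk hik,
      CharTwo.add_self_eq_zero] at h2
    have h3 : pol R (sv 4 {i, j}) (sv 4 {i, j}) = 0 := by
      show R _ + _ + _ = _
      rw [h.cong' (u' := 0) (w := sv 4 {i, j}) (zero_mem _) (hPm hij) (fun p => by simp; ring), h.zero,
        zero_add, CharTwo.add_self_eq_zero]
    rw [Finset.pair_comm j i, h3, zero_add] at h2
    exact h2.symm
  have hdisj : ∀ {i j k l : GolayPt}, i ≠ j → k ≠ l → i ≠ k → i ≠ l → j ≠ k → j ≠ l →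
      pol R (sv 4 {i, j}) (sv 4 {k, l}) = 0 := by
    intro i j k l hij hkl hik hil hjk hjl
    have e : e8 i + sv 4 {k, l} = sv 4 {i, k} + sv 4 {i, l} := (hsum3 hik hil hkl).symm
    have h2 := congrArg (fun t => pol R (sv 4 {i, j}) t) e
    simp only [h.pol_add_right (hPm hij) (he8m i) (hPm hkl),
      h.pol_add_right (hPm hij) (hPm hik) (hPm hil), hP8 hij, hγ0, zero_add] at h2
    rw [h2, hshare hij hik hjk, hshare hij hil hjl, CharTwo.add_self_eq_zero]
  have hα0 : ∀ {i j : GolayPt}, i ≠ j → R (sv 4 {i, j}) = 0 := by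
    intro i j hij
    rw [hα hij (show pt 0 ≠ pt 2 by decide +kernel)]
    have hC : bset 9347075 ∈ supports (golayCode : Set (GolayPt → ZMod 2)) :=
      bset_mem_supports (by decide +kernel)
    obtain ⟨a, b, c, d, e, f, g, k, hnd, heq⟩ : ∃ a b c d e f g k : GolayPt,
        ([a, b, c, d, e, f, g, k, pt 2].Nodup ∧ bset 9347075 = {a, b, c, d, e, f, g, k}) := by
      refine ⟨pt 0, pt 1, pt 13, pt 15, pt 17, pt 18, pt 19, pt 23, ?_⟩
      decide +kernel
    simp only [List.nodup_cons, List.mem_cons, List.not_mem_nil, or_false, not_or,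
      List.nodup_nil, and_true, not_false_eq_true] at hnd
    obtain ⟨⟨ab, ac, ad, ae, af, ag, ak, a2⟩, ⟨bc, bd, be, bf, bg, bk, b2⟩, ⟨cd, ce, cf, cg, ck, c2⟩,
      ⟨de, df, dg, dk, d2⟩, ⟨ef, eg, ek, ex⟩, ⟨fg, fk, f2⟩, ⟨gk, g2⟩, k2⟩ := hnd
    have hsum : sv 4 {a, b} + sv 4 {c, d} + sv 4 {e, f} + sv 4 {g, k} = sv 2 (bset 9347075) + sv 2 (bset 9347075) := by
      funext p
      rw [heq]
      simp only [Pi.add_apply, sv, Finset.mem_insert, Finset.mem_singleton]
      by_cases p1 : p = a
      · subst p1; simp [ab, ac, ad, ae, af, ag, ak]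
      by_cases p2 : p = b
      · subst p2; simp [p1, bc, bd, be, bf, bg, bk]
      by_cases p3 : p = c
      · subst p3; simp [p1, p2, cd, ce, cf, cg, ck]
      by_cases p4 : p = d
      · subst p4; simp [p1, p2, p3, de, df, dg, dk]
      by_cases p5 : p = e
      · subst p5; simp [p1, p2, p3, p4, ef, eg, ek]
      by_cases p6 : p = f
      · subst p6; simp [p1, p2, p3, p4, p5, fg, fk]
      by_cases p7 : p = g
      · subst p7; simp [p1, p2, p3, p4, p5, p6, gk]
      by_cases p8 : p = k
      · subst p8; simp [p1, p2, p3, p4, p5, p6, p7]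
      simp [p1, p2, p3, p4, p5, p6, p7, p8]
    have hX : sv 4 {a, pt 2} ∈ leechLattice := hPm a2
    have h2 := congrArg (fun t => pol R (sv 4 {a, pt 2}) t) hsum
    have mm := two_mem hC
    have hzero : pol R (sv 4 {a, pt 2}) (sv 2 (bset 9347075) + sv 2 (bset 9347075)) = 0 := by
      rw [h.pol_add_right hX mm mm, CharTwo.add_self_eq_zero]
    simp only [hzero, h.pol_add_right hX (add_mem (add_mem (hPm ab) (hPm cd)) (hPm ef)) (hPm gk),
      h.pol_add_right hX (add_mem (hPm ab) (hPm cd)) (hPm ef), h.pol_add_right hX (hPm ab) (hPm cd),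
      hdisj a2 cd ac ad (Ne.symm c2) (Ne.symm d2), hdisj a2 ef ae af (Ne.symm ex) (Ne.symm f2),
      hdisj a2 gk ag ak (Ne.symm g2) (Ne.symm k2), hshare a2 ab (Ne.symm b2), add_zero] at h2
    rw [hα (show pt 0 ≠ pt 2 by decide +kernel) a2]
    exact h2
  -- the vectors divisible by four
  have hPgen : ∀ {i j : GolayPt}, i ≠ j → ∀ d, IsFour d → pol R (sv 4 {i, j}) d = 0 := by
    intro i j hij d hd
    refine h.pol_four (a := i) (hPm hij) (by rw [hP8 hij, hγ0]) (fun p hp => ?_) hd
    by_cases hpj : p = j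
    · subst hpj
      rw [Finset.pair_comm p i]
      show R _ + _ + _ = _
      rw [h.cong' (u' := 0) (w := sv 4 {i, p}) (zero_mem _) (hPm hij) (fun q => by simp; ring), h.zero,
        zero_add, CharTwo.add_self_eq_zero]
    · rw [Finset.pair_comm p i, hshare hij hp.symm (Ne.symm hpj), hα0 hij]
  have hFF : ∀ d d', IsFour d → IsFour d' → pol R d d' = 0 := by
    intro d d' hd hd'
    refine h.pol_four (a := none) hd.1 ?_ (fun p hp => by rw [h.pol_comm]; exact hPgen hp d hd) hd'
    rw [h.pol_comm]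
    refine h.pol_four (a := none) (he8m none) ?_ (fun p hp => ?_) hd
    · show R _ + _ + _ = _
      rw [h.cong' (u' := 0) (w := sv 8 {none}) (zero_mem _) (he8m none) (fun q => by simp; ring), h.zero,
        zero_add, CharTwo.add_self_eq_zero]
    · rw [h.pol_comm]; exact (hP8 hp none).trans hγ0
  have hRF : ∀ d, IsFour d → R d = 0 := by
    intro d hd
    let H : AddSubgroup (GolayPt → ℤ) :=
      { carrier := {y | IsFour y ∧ R y = 0}
        zero_mem' := ⟨⟨zero_mem _, fun p => dvd_zero 4⟩, h.zero⟩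
        add_mem' := fun {u w} hu hw => ⟨⟨add_mem hu.1.1 hw.1.1, fun p => dvd_add (hu.1.2 p) (hw.1.2 p)⟩,
          by rw [h.R_add, hu.2, hw.2, hFF u w hu.1 hw.1]; rfl⟩
        neg_mem' := fun {u} hu => ⟨⟨neg_mem hu.1.1, fun p => (dvd_neg).2 (hu.1.2 p)⟩, by
          rw [h.cong' (u' := u) (w := -u) hu.1.1 (neg_mem hu.1.1) (fun p => by simp; ring)]; exact hu.2⟩ }
    refine (four_gen H none ⟨⟨he8m none, fun p => ?_⟩, (hγ none).trans hγ0⟩
      (fun p hp => ⟨⟨hPm hp, fun q => ?_⟩, hα0 hp⟩) hd).2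
    · simp only [sv]; split_ifs <;> norm_num
    · simp only [sv]; split_ifs <;> norm_num
  -- twice a code word against vectors divisible by four
  set O := bset 9347075 with hO
  have hOo : O ∈ octads := octad_base
  have hcross : ∀ {i j : GolayPt}, i ∈ O → j ∉ O → pol R (sv 2 O) (sv 4 {i, j}) = 0 := by
    intro i j hi hj
    obtain ⟨g, hg, hgo, e0, e2⟩ := octad_in_out hOo hi hj (show pt 0 ∈ O by rw [hO]; decide +kernel)
      (show pt 2 ∉ O by rw [hO]; decide +kernel)
    rw [← h.pol_perm hg (two_mem hOo.1) (hPm (show pt 0 ≠ pt 2 by decide +kernel))] at hnorm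
    have s1 : g⁻¹ • O = O := by rw [inv_smul_eq_iff, hgo]
    have s2 : g⁻¹ • ({pt 0, pt 2} : Finset GolayPt) = {i, j} := by
      rw [inv_smul_eq_iff, Finset.smul_finset_insert, Finset.smul_finset_singleton, Equiv.Perm.smul_def,
        Equiv.Perm.smul_def, e0, e2]
    rwa [sv_perm, sv_perm, s1, s2] at hnorm
  have hμ : pol R (sv 2 O) (e8 (pt 0)) = 0 := by
    obtain ⟨C, hC, hCO⟩ : ∃ C, C ∈ supports (golayCode : Set (GolayPt → ZMod 2)) ∧ (O ∩ C).card = 2 := by
      have : ∃ r ∈ rows, (O ∩ bset r).card = 2 := by rw [hO]; decide +kernel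
      obtain ⟨r, hr, e⟩ := this
      exact ⟨bset r, bset_mem_supports (rows_octads r hr).1, e⟩
    obtain ⟨i, i', hii, hC2⟩ := Finset.card_eq_two.1 hCO
    have hj : pt 2 ∉ O := by rw [hO]; decide +kernel
    have hiO : i ∈ O := (Finset.mem_inter.1 (hC2 ▸ Finset.mem_insert_self i _)).1
    have hi'O : i' ∈ O := (Finset.mem_inter.1 (hC2 ▸ Finset.mem_insert_of_mem (Finset.mem_singleton_self i'))).1
    have hflip : pol R (sv 2 O) (sv 4 {i, i'}) = 0 := by
      have e := h.sign hC (two_mem hOo.1)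
      rw [h.cong' (u := flipSign C (sv 2 O)) (u' := sv 2 O + sv 4 {i, i'}) (w := -sv 4 {i, i'})
        (add_mem (two_mem hOo.1) (hPm hii)) (neg_mem (hPm hii)) (fun p => by
          have hp : p ∈ ({i, i'} : Finset GolayPt) ↔ p ∈ O ∧ p ∈ C := by rw [← hC2, Finset.mem_inter]
          simp only [flipSign, Pi.add_apply, Pi.neg_apply, sv, hp]
          by_cases a : p ∈ O <;> by_cases b : p ∈ C <;> simp [a, b]), h.R_add, hα0 hii] at e
      linear_combination e
    have hne : i ≠ pt 2 := fun e => hj (e ▸ hiO)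
    have hne' : i' ≠ pt 2 := fun e => hj (e ▸ hi'O)
    have e := congrArg (fun t => pol R (sv 2 O) t) (hsum3 hne.symm hne'.symm hii)
    simp only [h.pol_add_right (two_mem hOo.1) (hPm hne.symm) (hPm hne'.symm),
      h.pol_add_right (two_mem hOo.1) (he8m (pt 2)) (hPm hii), hflip, add_zero] at e
    rw [Finset.pair_comm _ i, Finset.pair_comm _ i', hcross hiO hj, hcross hi'O hj] at e
    rw [(e8R (pt 0) (pt 2)).2 _ (two_mem hOo.1), ← e]
    rfl
  have hOF : ∀ d, IsFour d → pol R (sv 2 O) d = 0 := by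
    intro d hd
    have h0 : pt 0 ∈ O := by rw [hO]; decide +kernel
    refine h.pol_four (a := pt 2) (two_mem hOo.1) (by rw [← (e8R (pt 0) (pt 2)).2 _ (two_mem hOo.1)]; exact hμ)
      (fun p hp => ?_) hd
    have h2 : pt 2 ∉ O := by rw [hO]; decide +kernel
    by_cases hpO : p ∈ O
    · exact hcross hpO h2
    · have n1 : pt 0 ≠ p := fun e => hpO (e ▸ h0)
      have n2 : pt 0 ≠ pt 2 := fun e => h2 (e ▸ h0)
      have e := congrArg (fun t => pol R (sv 2 O) t) (hsum3 n1 n2 hp)
      simp only [h.pol_add_right (two_mem hOo.1) (hPm n1) (hPm n2),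
        h.pol_add_right (two_mem hOo.1) (he8m (pt 0)) (hPm hp), hμ, hcross h0 hpO, hcross h0 h2,
        zero_add] at e
      exact e.symm
  have hoctF : ∀ o ∈ octads, ∀ d, IsFour d → pol R (sv 2 o) d = 0 := by
    intro o ho d hd
    obtain ⟨g, hg, e⟩ := M24_octad_transitive hOo ho
    rw [← e, ← h.pol_perm hg (two_mem (smul_mem_supports hg hOo.1)) hd.1, sv_perm, inv_smul_smul]
    exact hOF _ ⟨perm_mem_leech hg hd.1, fun p => hd.2 _⟩
  have hcodeF : ∀ C, C ∈ supports (golayCode : Set (GolayPt → ZMod 2)) → ∀ d, IsFour d →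
      pol R (sv 2 C) d = 0 := by
    intro C hC d hd
    refine code_gen (fun C => pol R (sv 2 C) d = 0) ?_ (fun o ho => hoctF o ho d hd) ?_ hC
    · have : sv 2 (∅ : Finset GolayPt) = 0 := by funext p; simp [sv]
      rw [this, h.pol_comm, h.pol_zero hd.1]
    · intro C C' hC hC' e e'
      have hsd := two_mem (symmDiff_mem_supports hC hC')
      have hd4 := two_symmDiff hC hC'
      have := congrArg (fun t => pol R t d) (add_sub_cancel (sv 2 (symmDiff C C')) (sv 2 C + sv 2 C'))
      simp only [h.pol_add hsd hd4.1 hd.1, h.pol_add (two_mem hC) (two_mem hC') hd.1, e, e',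
        hFF _ _ hd4 hd, add_zero] at this
      exact this
  -- the odd vector
  have hv := oddVec_mem
  have hv8 : ∀ k, pol R oddVec (e8 k) = 0 := by
    intro k
    obtain ⟨C, hC, hiC, hjC⟩ := exists_sep (show pt 0 ≠ pt 2 by decide +kernel)
    have n : pt 0 ≠ pt 2 := by decide +kernel
    have e := h.pol_sign hC hv (hPm n)
    have hCeight : flipSign C oddVec - oddVec ∈ leechLattice := sub_mem (sign_mem_leech hC hv) hv
    have hu : pol R (flipSign C oddVec - oddVec) (sv 4 {pt 0, pt 2} + e8 (pt 0)) = 0 := by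
      obtain ⟨C', hC', hF⟩ := even_split hCeight (fun p => by
        simp only [Pi.sub_apply, flipSign, oddVec]; split_ifs <;> norm_num)
      have hd : IsFour (sv 4 {pt 0, pt 2} + e8 (pt 0)) :=
        ⟨add_mem (hPm n) (he8m _), fun p => by
          simp only [he8, Pi.add_apply, sv]; split_ifs <;> norm_num⟩
      rw [← add_sub_cancel (sv 2 C') (flipSign C oddVec - oddVec), h.pol_add (two_mem hC') hF.1 hd.1,
        hcodeF C' hC' _ hd, hFF _ _ hF hd, add_zero]
    rw [h.pol_cong (x := flipSign C oddVec) (u := flipSign C (sv 4 {pt 0, pt 2}))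
      (u' := sv 4 {pt 0, pt 2} + e8 (pt 0)) (w := -e8 (pt 0)) (add_mem (hPm n) (he8m _)) (neg_mem (he8m _))
      (sign_mem_leech hC hv) (fun p => by
        simp only [he8, Pi.add_apply, Pi.neg_apply, flipSign, sv, Finset.mem_insert, Finset.mem_singleton]
        by_cases a : p = pt 0
        · subst a; simp [hiC]
        · by_cases b : p = pt 2
          · subst b; simp [a, hjC]
          · simp [a, b]),
      ← add_sub_cancel oddVec (flipSign C oddVec), h.pol_add hv hCeight (add_mem (hPm n) (he8m _)), hu,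
      add_zero, h.pol_add_right hv (hPm n) (he8m _), add_eq_left] at e
    rw [(e8R k (pt 0)).2 _ hv]
    exact e
  have hvP : ∀ {i j : GolayPt}, i ≠ j → pol R oddVec (sv 4 {i, j}) = 0 := by
    have hconst : ∀ {i j k l : GolayPt}, i ≠ j → k ≠ l →
        pol R oddVec (sv 4 {i, j}) = pol R oddVec (sv 4 {k, l}) := by
      intro i j k l hij hkl
      obtain ⟨σ, hσ, e1, e2⟩ := exists_mem_M24_two hij hkl
      rw [← h.pol_perm hσ hv (hPm hkl), sv_perm]
      have hs : σ⁻¹ • ({k, l} : Finset GolayPt) = {i, j} := by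
        rw [inv_smul_eq_iff, Finset.smul_finset_insert, Finset.smul_finset_singleton, Equiv.Perm.smul_def,
          Equiv.Perm.smul_def, e1, e2]
      rw [hs]
      have hdiff : IsFour ((fun p => oddVec (σ p)) - oddVec) :=
        ⟨sub_mem (perm_mem_leech hσ hv) hv, fun p => by
          simp only [Pi.sub_apply, oddVec]; split_ifs <;> norm_num⟩
      conv_rhs => rw [← add_sub_cancel oddVec (fun p => oddVec (σ p)),
        h.pol_add hv hdiff.1 (hPm hij), h.pol_comm ((fun p => oddVec (σ p)) - oddVec) (sv 4 {i, j}), hPgen hij _ hdiff, add_zero]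
    intro i j hij
    obtain ⟨k, hk⟩ : ∃ k : GolayPt, k ∉ ({i, j} : Finset GolayPt) := by
      by_contra hc
      push Not at hc
      have := Finset.card_le_card (show (Finset.univ : Finset GolayPt) ⊆ {i, j} from fun u _ => hc u)
      rw [Finset.card_univ, card_golayPt, Finset.card_pair hij] at this
      omega
    simp only [Finset.mem_insert, Finset.mem_singleton, not_or] at hk
    have e := congrArg (fun t => pol R oddVec t) (hsum3 hij (Ne.symm hk.1) (Ne.symm hk.2))
    simp only [h.pol_add_right hv (hPm hij) (hPm (Ne.symm hk.1)),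
      h.pol_add_right hv (he8m i) (hPm (Ne.symm hk.2)), hv8, zero_add] at e
    rw [hconst (Ne.symm hk.1) hij, CharTwo.add_self_eq_zero, hconst (Ne.symm hk.2) hij] at e
    exact e.symm
  have hvF : ∀ d, IsFour d → pol R oddVec d = 0 := fun d hd =>
    h.pol_four (a := none) hv (hv8 none) (fun p hp => hvP hp) hd
  have hanyF : ∀ x ∈ leechLattice, (∀ p, (2 : ℤ) ∣ x p) → ∀ d, IsFour d → pol R x d = 0 := by
    intro x hx hev d hd
    obtain ⟨C, hC, hF⟩ := even_split hx hev
    rw [← add_sub_cancel (sv 2 C) x, h.pol_add (two_mem hC) hF.1 hd.1, hcodeF C hC d hd, hFF _ _ hF hd,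
      add_zero]
  -- the code layer
  have hg : ∀ C, C ∈ supports (golayCode : Set (GolayPt → ZMod 2)) →
      R (sv 2 C) = pol R oddVec (sv 2 C) := by
    intro C hC
    have hF : IsFour (flipSign C oddVec - (oddVec + sv 2 C)) := by
      refine ⟨sub_mem (sign_mem_leech hC hv) (add_mem hv (two_mem hC)), fun p => ?_⟩
      simp only [Pi.sub_apply, Pi.add_apply, flipSign, oddVec, sv]
      split_ifs <;> norm_num
    have e := h.sign hC hv
    rw [← add_sub_cancel (oddVec + sv 2 C) (flipSign C oddVec), h.R_add, hRF _ hF,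
      h.pol_add hv (two_mem hC) hF.1, hvF _ hF, hcodeF C hC _ hF, h.R_add] at e
    linear_combination e - CharTwo.add_self_eq_zero (pol R oddVec (sv 2 C))
  have hadd : ∀ C C', C ∈ supports (golayCode : Set (GolayPt → ZMod 2)) →
      C' ∈ supports (golayCode : Set (GolayPt → ZMod 2)) →
      pol R oddVec (sv 2 C) + pol R oddVec (sv 2 C') = pol R oddVec (sv 2 (symmDiff C C')) := by
    intro C C' hC hC'
    have hd4 := two_symmDiff hC hC'
    rw [← h.pol_add_right hv (two_mem hC) (two_mem hC'),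
      ← add_sub_cancel (sv 2 (symmDiff C C')) (sv 2 C + sv 2 C'),
      h.pol_add_right hv (two_mem (symmDiff_mem_supports hC hC')) hd4.1, hvF _ hd4, add_zero]
  have hoctR : ∀ o ∈ octads, R (sv 2 o) = R (sv 2 O) := by
    intro o ho
    obtain ⟨g, hg', e⟩ := M24_octad_transitive hOo ho
    rw [← e, ← h.perm hg' (two_mem (smul_mem_supports hg' hOo.1)), sv_perm, inv_smul_smul]
  have hO0 : R (sv 2 O) = 0 := by
    obtain ⟨o, ho, h4⟩ : ∃ o ∈ octads, (O ∩ o).card = 4 := by
      have : ∃ i < 4096, pc (encode i) = 8 ∧ (O ∩ bset (encode i)).card = 4 := by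
        have hany : ((List.range 4096).any fun i =>
            pc (encode i) == 8 && pc (9347075 &&& encode i) == 4) = true := by decide +kernel
        simp only [List.any_eq_true, Bool.and_eq_true, beq_iff_eq] at hany
        obtain ⟨i, hi, h8, h4⟩ := hany
        exact ⟨i, List.mem_range.1 hi, h8, by rw [hO, ← bset_and, card_bset, h4]⟩
      obtain ⟨i, -, h8, h4⟩ := this
      exact ⟨bset (encode i), M24Orbits.octad_of_mask (by simp [inC_encode, h8]), h4⟩
    have hsd : symmDiff O o ∈ octads := by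
      refine ⟨symmDiff_mem_supports hOo.1 ho.1, ?_⟩
      have := card_symmDiff_add (s := O) (t := o)
      rw [card_octad hOo, card_octad ho] at this
      omega
    have e := hadd O o hOo.1 ho.1
    rw [← hg _ hOo.1, ← hg _ ho.1, ← hg _ hsd.1, hoctR o ho, hoctR _ hsd, CharTwo.add_self_eq_zero] at e
    exact e.symm
  have hg0 : ∀ C, C ∈ supports (golayCode : Set (GolayPt → ZMod 2)) → pol R oddVec (sv 2 C) = 0 := by
    intro C hC
    refine code_gen (fun C => pol R oddVec (sv 2 C) = 0) ?_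
      (fun o ho => by rw [← hg o ho.1, hoctR o ho, hO0])
      (fun A B hA hB a b => by rw [← hadd A B hA hB, a, b, add_zero]) hC
    have : sv 2 (∅ : Finset GolayPt) = 0 := by funext p; simp [sv]
    rw [this, h.pol_zero hv]
  have heven : ∀ x ∈ leechLattice, (∀ p, (2 : ℤ) ∣ x p) → R x = 0 ∧ pol R oddVec x = 0 := by
    intro x hx hev
    obtain ⟨C, hC, hF⟩ := even_split hx hev
    rw [← add_sub_cancel (sv 2 C) x]
    refine ⟨?_, ?_⟩
    · rw [h.R_add, hRF _ hF, hcodeF C hC _ hF, hg C hC, hg0 C hC]; rfl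
    · rw [h.pol_add_right hv (two_mem hC) hF.1, hg0 C hC, hvF _ hF, add_zero]
  have hoddR : ∀ x ∈ leechLattice, ¬ (∀ p, (2 : ℤ) ∣ x p) → R x = R oddVec := by
    intro x hx hodd
    have hev : ∀ p, (2 : ℤ) ∣ (x - oddVec) p := by
      obtain ⟨m, y, hy, -, -⟩ := mem_leech_iff.1 hx
      intro p
      push Not at hodd
      obtain ⟨q, hq⟩ := hodd
      have := hy q
      have := hy p
      simp only [Pi.sub_apply, oddVec]
      split_ifs <;> omega
    obtain ⟨e1, e2⟩ := heven _ (sub_mem hx hv) hev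
    rw [← add_sub_cancel oddVec x, h.R_add, e1, e2, add_zero, add_zero]
  have hδ : R oddVec = 0 := by
    have hw : ((List.range 12).any fun k =>
        pc (rows.getD k 0 &&& M24Orbits.sext2b.getD 0 0) % 2 == 1) = true := by decide +kernel
    simp only [List.any_eq_true, beq_iff_eq] at hw
    obtain ⟨k, hk, hodd⟩ := hw
    set r := rows.getD k 0 with hr
    have hrm : r ∈ rows := by
      rw [hr, List.getD_eq_getElem _ _ (show k < rows.length by
        have : rows.length = 12 := rfl
        have := List.mem_range.1 hk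
        omega)]
      exact List.getElem_mem _
    have hC : bset r ∈ supports (golayCode : Set (GolayPt → ZMod 2)) := bset_mem_supports (rows_octads r hrm).1
    have hmem := two_mem hC
    have hcard : (tet 0 ∩ bset r).card % 2 = 1 := by
      rw [Finset.inter_comm, tet, ← bset_and, card_bset]; exact hodd
    have hodd' : ¬ ∀ p, (2 : ℤ) ∣ xiMap (sv 2 (bset r)) p := by
      intro hall
      obtain ⟨p, hp⟩ : (tet 0).Nonempty := Finset.card_pos.1 (by rw [tet_ok.1.1 0]; norm_num)
      have := hall p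
      have hs : tsum (sv 2 (bset r)) 0 = 2 * ((tet 0 ∩ bset r).card : ℤ) := by
        simp [tsum, sv, Finset.sum_ite_mem, mul_comm]
      simp only [xiMap, (tau_spec p 0).1 hp, if_true, hs, sv] at this
      split_ifs at this <;> omega
    rw [← hoddR _ (xi_mem hmem) hodd', h.tetInv hmem]
    exact (heven _ hmem fun p => by simp only [sv]; split_ifs <;> norm_num).1
  intro x hx
  by_cases hev : ∀ p, (2 : ℤ) ∣ x p
  · exact (heven x hx hev).1
  · rw [hoddR x hx hev, hδ]

end Cfsg.Agent.Leech2
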