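import Cfsg.Agent.Leech2.Classes
import Cfsg.Agent.Leech2.Frame

/-! The stabilizer of a short vector: faithful on the orthogonal short vectors, trivial two-core. -/

set_option autoImplicit false
set_option maxRecDepth 20000
open Cfsg Cfsg.Agent.Golay
open scoped Pointwise

namespace Cfsg.Agent.Leech2

/-- The vector `(4, -4)`. -/
def uL' : ↥leechLattice := ⟨uVec', leechTest_sound (by decide +kernel)⟩

/-- `4 (e i + s e j)`. -/
def pairFun (i j : GolayPt) (s : ℤ) : GolayPt → ℤ := fun p => if p = i then 4 else if p = j then 4 * s else 0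

theorem pairFun_mem {i j : GolayPt} (h : i ≠ j) {s : ℤ} (hs : s = 1 ∨ s = -1) :
    pairFun i j s ∈ leechLattice := by
  have h4 : sv 4 {i, j} ∈ leechLattice := sv_four_mem (pair_card h)
  rcases hs with rfl | rfl
  · convert h4 using 1
    funext p
    simp only [pairFun, sv, Finset.mem_insert, Finset.mem_singleton]
    split_ifs <;> simp_all
  · have e : pairFun i j (-1) = sv 4 {i, j} - (e8 j : GolayPt → ℤ) := by
      funext p
      simp only [pairFun, sv, Finset.mem_insert, Finset.mem_singleton, e8, Pi.sub_apply, Pi.single_apply]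
      by_cases h1 : p = i
      · subst h1; simp [h]
      · by_cases h2 : p = j <;> simp [h1, h2, h.symm]
    rw [e]; exact sub_mem h4 (e8 j).2

theorem pairFun_norm {i j : GolayPt} (h : i ≠ j) {s : ℤ} (hs : s = 1 ∨ s = -1) : sqNorm (pairFun i j s) = 32 := by
  have e : ∀ p, pairFun i j s p ^ 2 = (if p = i then 16 else 0) + (if p = j then 16 else 0) := fun p => by
    simp only [pairFun]
    by_cases h1 : p = i
    · subst h1; simp [h]
    · by_cases h2 : p = j <;> rcases hs with rfl | rfl <;> simp [h1, h2, h.symm]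
  rw [sqNorm, Finset.sum_congr rfl fun p _ => e p, Finset.sum_add_distrib]
  simp

theorem uVec_pts : uVec none = 4 ∧ uVec (pt 0) = 4 ∧ (none : GolayPt) ≠ pt 0 ∧
    ∀ p : GolayPt, p ≠ none → p ≠ pt 0 → uVec p = 0 := by decide +kernel

theorem uL'_pts : sqNorm (cs uL') = 32 ∧ dotInt (cs uL) (cs uL') = 0 ∧ uL + uL' = e8 none ∧
    uL - uL' = e8 (pt 0) := by
  refine ⟨by decide +kernel, by decide +kernel, ?_, ?_⟩ <;>
    · refine Subtype.ext (funext ?_)
      decide +kernel

/-- An element fixing every short vector orthogonal to the standard one up to sign. -/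
def FixesPairs (g : ↥Co0) : Prop :=
  ∀ w : ↥leechLattice, sqNorm (cs w) = 32 → dotInt (cs uL) (cs w) = 0 → g • w = w ∨ g • w = -w

theorem fixesPairs_eq_one {g : ↥Co0} (hu : g • uL = uL) (hg : FixesPairs g) : g = 1 := by
  obtain ⟨hn', hd', hp, hm⟩ := uL'_pts
  have h0 : g • e8 none = e8 none ∨ g • e8 none = e8 (pt 0) := by
    rcases hg uL' hn' hd' with e | e
    · left; rw [← hp, co0_add, hu, e]
    · right; rw [← hp, co0_add, hu, e, ← sub_eq_add_neg, hm]
  have hfs : g ∈ frameStab := by
    rcases h0 with e | e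
    · exact ⟨0, by rw [e]; simp⟩
    · obtain ⟨z, hz⟩ := e8_class (pt 0)
      exact ⟨-z, by rw [e, hz]; abel⟩
  obtain ⟨σ, hσ, c, hc, rfl⟩ := mem_frameStab.1 hfs
  have hpair : ∀ {i j : GolayPt}, i ≠ none → i ≠ pt 0 → j ≠ none → j ≠ pt 0 → i ≠ j →
      ∀ {s : ℤ} (hs : s = 1 ∨ s = -1) (p : GolayPt),
        sgnOf c p * pairFun i j s (σ.symm p) = pairFun i j s p ∨
        sgnOf c p * pairFun i j s (σ.symm p) = -pairFun i j s p := by
    intro i j h1 h2 h3 h4 hij s hs p
    have hd : dotInt (cs uL) (pairFun i j s) = 0 := by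
      refine Finset.sum_eq_zero fun q _ => ?_
      by_cases hq : q = none ∨ q = pt 0
      · rcases hq with rfl | rfl <;> simp [pairFun, Ne.symm h1, Ne.symm h2, Ne.symm h3, Ne.symm h4]
      · push_neg at hq
        show uVec q * _ = 0
        rw [uVec_pts.2.2.2 q hq.1 hq.2, zero_mul]
    rcases hg ⟨_, pairFun_mem hij hs⟩ (pairFun_norm hij hs) hd with e | e
    · left
      have := congrFun (congrArg (fun a : ↥leechLattice => (a : GolayPt → ℤ)) e) p
      simp only [monoEl_apply, signedPerm_eq] at this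
      exact this
    · right
      have := congrFun (congrArg (fun a : ↥leechLattice => (a : GolayPt → ℤ)) e) p
      simp only [monoEl_apply, signedPerm_eq, AddSubgroup.coe_neg, Pi.neg_apply] at this
      exact this
  have hexist : ∀ i : GolayPt, ∃ j k, j ≠ none ∧ j ≠ pt 0 ∧ k ≠ none ∧ k ≠ pt 0 ∧ i ≠ j ∧ i ≠ k ∧ j ≠ k := by
    decide +kernel
  have hmove : ∀ i, i ≠ none → i ≠ pt 0 → σ i = i := by
    intro i h1 h2
    obtain ⟨j, k, hj1, hj2, hk1, hk2, hij, hik, hjk⟩ := hexist i
    have key : ∀ {j}, j ≠ none → j ≠ pt 0 → i ≠ j → σ i = i ∨ σ i = j := by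
      intro j hj1 hj2 hij
      by_contra hn
      push_neg at hn
      rcases hpair h1 h2 hj1 hj2 hij (s := 1) (Or.inl rfl) (σ i) with e | e <;>
        · simp only [Equiv.symm_apply_apply, pairFun, if_true, hn.1, hn.2, if_false, sgnOf] at e
          split_ifs at e <;> norm_num at e
    rcases key hj1 hj2 hij with e | e
    · exact e
    rcases key hk1 hk2 hik with e' | e'
    · exact e'
    · exact absurd (e.symm.trans e') hjk
  have hnone : σ none = none := by
    by_contra hne
    have hσ0 : σ none = pt 0 := by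
      by_contra hne0
      have := hmove (σ none) hne hne0
      exact hne (σ.injective this)
    have hoct : bset 8394986 ∈ octads → (none : GolayPt) ∈ bset 8394986 → pt 0 ∉ bset 8394986 → False := by
      intro ho h1 h2
      have hsame : σ • bset 8394986 = bset 8394986 := by
        refine octad_eq_of_five_le (smul_mem_octads hσ ho) ho ?_
        have hsub : (bset 8394986).erase none ⊆ σ • bset 8394986 ∩ bset 8394986 := fun p hp => by
          obtain ⟨hp1, hp2⟩ := Finset.mem_erase.1 hp
          refine Finset.mem_inter.2 ⟨Finset.mem_smul_finset.2 ⟨p, hp2, hmove p hp1 fun e => h2 (e ▸ hp2)⟩, hp2⟩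
        refine le_trans ?_ (Finset.card_le_card hsub)
        rw [Finset.card_erase_of_mem h1, card_octad ho]
        norm_num
      exact h2 (hsame ▸ Finset.mem_smul_finset.2 ⟨none, h1, hσ0⟩)
    exact hoct (M24Orbits.octad_of_mask (by decide +kernel)) (by decide +kernel) (by decide +kernel)
  have hσ1 : σ = 1 := by
    refine Equiv.ext fun i => ?_
    by_cases h1 : i = none
    · rw [h1]; exact hnone
    by_cases h2 : i = pt 0
    · by_contra hne
      have ha : σ i ≠ none := fun e => h1 (σ.injective (e.trans hnone.symm))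
      have hb : σ i ≠ pt 0 := fun e => hne (by rw [e, h2]; rfl)
      exact hne (σ.injective (hmove (σ i) ha hb))
    · exact hmove i h1 h2
  subst hσ1
  have hout : (none : GolayPt) ∉ c ∧ pt 0 ∉ c := by
    refine ⟨fun h => ?_, fun h => ?_⟩
    · have := congrFun (congrArg (fun a : ↥leechLattice => (a : GolayPt → ℤ)) hu) none
      simp only [monoEl_apply, signedPerm_eq, sgnOf, if_pos h] at this
      rw [show (1 : Equiv.Perm GolayPt).symm none = none from rfl] at this
      change -1 * uVec none = uVec none at this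
      rw [uVec_pts.1] at this; norm_num at this
    · have := congrFun (congrArg (fun a : ↥leechLattice => (a : GolayPt → ℤ)) hu) (pt 0)
      simp only [monoEl_apply, signedPerm_eq, sgnOf, if_pos h] at this
      rw [show (1 : Equiv.Perm GolayPt).symm (pt 0) = pt 0 from rfl] at this
      change -1 * uVec (pt 0) = uVec (pt 0) at this
      rw [uVec_pts.2.1] at this; norm_num at this
  have hc0 : c = ∅ := by
    by_contra hne
    obtain ⟨i, hi⟩ := Finset.nonempty_iff_ne_empty.2 hne
    have h1 : i ≠ none := fun e => hout.1 (e ▸ hi)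
    have h2 : i ≠ pt 0 := fun e => hout.2 (e ▸ hi)
    have hceq : c = ({none, pt 0} : Finset GolayPt)ᶜ := by
      ext j
      simp only [Finset.mem_compl, Finset.mem_insert, Finset.mem_singleton, not_or]
      refine ⟨fun hj => ⟨fun e => hout.1 (e ▸ hj), fun e => hout.2 (e ▸ hj)⟩, fun ⟨hj1, hj2⟩ => ?_⟩
      by_contra hj
      have hij : i ≠ j := fun e => hj (e ▸ hi)
      obtain ⟨a, b, ha, hb⟩ : ∃ a b : ℤ, sgnOf c i * 4 = a ∧ sgnOf c j * 4 = b := ⟨_, _, rfl, rfl⟩
      have hsi : sgnOf c i = -1 := if_pos hi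
      have hsj : sgnOf c j = 1 := if_neg hj
      have hw : (⟨pairFun i j 1, pairFun_mem hij (Or.inl rfl)⟩ : ↥leechLattice) = _ := rfl
      rcases hg ⟨_, pairFun_mem hij (Or.inl rfl)⟩ (pairFun_norm hij (Or.inl rfl)) (by
        refine Finset.sum_eq_zero fun q _ => ?_
        by_cases hq : q = none ∨ q = pt 0
        · show _ * pairFun i j 1 q = 0
          rcases hq with rfl | rfl
          · rw [pairFun, if_neg (Ne.symm h1), if_neg (Ne.symm hj1), mul_zero]
          · rw [pairFun, if_neg (Ne.symm h2), if_neg (Ne.symm hj2), mul_zero]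
        · push_neg at hq
          show uVec q * _ = 0
          rw [uVec_pts.2.2.2 q hq.1 hq.2, zero_mul]) with e | e
      · have := congrFun (congrArg (fun a : ↥leechLattice => (a : GolayPt → ℤ)) e) i
        simp only [monoEl_apply, signedPerm_eq, hsi] at this
        rw [show (1 : Equiv.Perm GolayPt).symm i = i from rfl] at this
        simp [pairFun] at this
      · have := congrFun (congrArg (fun a : ↥leechLattice => (a : GolayPt → ℤ)) e) j
        simp only [monoEl_apply, signedPerm_eq, hsj, AddSubgroup.coe_neg, Pi.neg_apply] at this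
        rw [show (1 : Equiv.Perm GolayPt).symm j = j from rfl] at this
        simp [pairFun, hij.symm] at this
    have hcard := card_of_mem_supports hc
    rw [hceq, Finset.card_compl, card_golayPt, Finset.card_pair uVec_pts.2.2.1] at hcard
    omega
  subst hc0
  exact co0_ext fun i => Subtype.ext (funext fun p => by
    rw [monoEl_apply, signedPerm_eq, one_smul]; simp [sgnOf]; rfl)

/-- The stabilizer of the standard short vector. -/
abbrev stabU : Subgroup ↥Co0 := MulAction.stabilizer ↥Co0 uL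

theorem stabU_card : Nat.card ↥stabU = 42305421312000 := by
  haveI : Finite ↥Co0 := Nat.finite_of_card_ne_zero (by rw [co0_card]; norm_num)
  have horb : MulAction.orbit ↥Co0 uL = {a : ↥leechLattice | sqNorm (a : GolayPt → ℤ) = 32} := by
    ext a
    exact ⟨fun ⟨g, hg⟩ => hg ▸ (co0_norm g _).trans test_values.1,
      fun ha => co0_transitive (Or.inl rfl) test_values.1 ha⟩
  have hn : {a : ↥leechLattice | sqNorm (a : GolayPt → ℤ) = 32}.ncard = 196560 := by
    have h := census _ allAbs_small 32 (by norm_num)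
    rw [← shell_eq (by norm_num), census_values.1] at h
    rw [← h, ← Set.ncard_image_of_injective _ Subtype.coe_injective]
    refine congrArg Set.ncard (Set.ext fun x => ?_)
    exact ⟨fun ⟨a, ha, e⟩ => e ▸ ⟨a.2, ha⟩, fun ⟨h1, h2⟩ => ⟨⟨x, h1⟩, h2, rfl⟩⟩
  have h := Subgroup.card_eq_card_quotient_mul_card_subgroup stabU
  rw [← Nat.card_congr (MulAction.orbitEquivQuotientStabilizer ↥Co0 uL), Nat.card_coe_set_eq, horb, hn,
    co0_card] at h
  omega

/-- The stabilizer of the pair of orthogonal short vectors. -/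
def pairStab : Subgroup ↥stabU where
  carrier := {g | g.1 • uL' = uL' ∨ g.1 • uL' = -uL'}
  one_mem' := Or.inl (one_smul _ _)
  mul_mem' := by
    rintro a b ha hb
    show (a.1 * b.1) • uL' = _ ∨ (a.1 * b.1) • uL' = _
    rw [mul_smul]
    rcases hb with e | e <;> rcases ha with e' | e' <;> simp [e, e', co0_neg]
  inv_mem' := by
    rintro a ha
    show a.1⁻¹ • uL' = _ ∨ a.1⁻¹ • uL' = _
    rcases ha with e | e
    · exact Or.inl (inv_smul_eq_iff.2 e.symm)
    · exact Or.inr (inv_smul_eq_iff.2 (by rw [co0_neg, e, neg_neg]))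

theorem words_avoid : countB (fun i => !((encode i).testBit 23) && !((encode i).testBit 0)) 12 0 = 1024 := by
  decide +kernel

theorem pairStab_card : Nat.card ↥pairStab = 443520 * 2 * 1024 := by
  classical
  obtain ⟨τ, hτ, hτn, hτ0⟩ := exists_mem_M24_two uVec_pts.2.2.1 uVec_pts.2.2.1.symm
  let S2 : Subgroup (Equiv.Perm GolayPt) := M24 ⊓ MulAction.stabilizer (Equiv.Perm GolayPt) (none : GolayPt) ⊓
    MulAction.stabilizer (Equiv.Perm GolayPt) (pt 0)
  let C : Set (Finset GolayPt) :=
    {c | c ∈ supports (golayCode : Set (GolayPt → ZMod 2)) ∧ (none : GolayPt) ∉ c ∧ pt 0 ∉ c}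
  let perm : ↥S2 × Bool → ↥M24 := fun q => ⟨q.1.1 * (if q.2 then τ else 1),
    mul_mem q.1.2.1.1 (by split_ifs; exacts [hτ, one_mem _])⟩
  have hswap : ∀ q : ↥S2 × Bool, (perm q).1 none = (if q.2 then pt 0 else none) ∧
      (perm q).1 (pt 0) = (if q.2 then none else pt 0) := by
    rintro ⟨⟨s, ⟨-, hs1⟩, hs2⟩, b⟩
    cases b <;> simp only [perm, Bool.false_eq_true, if_false, if_true, Equiv.Perm.mul_apply, mul_one]
    · exact ⟨hs1, hs2⟩
    · rw [hτn, hτ0]; exact ⟨hs2, hs1⟩
  have hmem : ∀ (q : ↥S2 × Bool) (c : ↥C), monoEl (perm q).1 (perm q).2 c.1 c.2.1 • uL = uL ∧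
      (monoEl (perm q).1 (perm q).2 c.1 c.2.1 • uL' = uL' ∨ monoEl (perm q).1 (perm q).2 c.1 c.2.1 • uL' = -uL') := by
    intro q c
    obtain ⟨h1, h2⟩ := hswap q
    obtain ⟨-, hu', hp, hm⟩ := uL'_pts
    have a : ∀ i, i = none ∨ i = pt 0 → monoEl (perm q).1 (perm q).2 c.1 c.2.1 • e8 i = e8 ((perm q).1 i) := by
      intro i hi
      have hnotin : (perm q).1 i ∉ c.1 := by
        rcases hi with rfl | rfl
        · rw [h1]; cases q.2 <;> simp [c.2.2.1, c.2.2.2]
        · rw [h2]; cases q.2 <;> simp [c.2.2.1, c.2.2.2]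
      refine Subtype.ext ?_
      rw [monoEl_apply]
      show signedPerm _ _ (Pi.single i 8) = Pi.single _ 8
      rw [signedPerm_single, sgnOf, if_neg hnotin, one_mul]
    have hn := a none (Or.inl rfl)
    have h0 := a (pt 0) (Or.inr rfl)
    rw [h1] at hn; rw [h2] at h0
    rw [← hp, co0_add] at hn
    rw [← hm, sub_eq_add_neg, co0_add, co0_neg] at h0
    set A := monoEl (perm q).1 (perm q).2 c.1 c.2.1 • uL
    set B := monoEl (perm q).1 (perm q).2 c.1 c.2.1 • uL'
    have hA : A + A = uL + uL := by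
      cases hb : q.2 <;> simp only [hb, Bool.false_eq_true, if_false, if_true] at hn h0
      all_goals
        rw [show A + A = (A + B) + (A + -B) by abel, hn, h0, ← hp, ← hm]
        abel
    have hA' : A = uL := by
      refine Subtype.ext (funext fun p => ?_)
      have := congrFun (congrArg (fun a : ↥leechLattice => (a : GolayPt → ℤ)) hA) p
      simp only [AddSubgroup.coe_add, Pi.add_apply] at this
      omega
    refine ⟨hA', ?_⟩
    cases hb : q.2 <;> simp only [hb, Bool.false_eq_true, if_false, if_true] at hn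
    · left; rw [hA', ← hp] at hn; exact add_left_cancel hn
    · right; rw [hA', ← hm, sub_eq_add_neg] at hn; exact add_left_cancel hn
  let Φ : (↥S2 × Bool) × ↥C → ↥pairStab := fun x =>
    ⟨⟨monoEl (perm x.1).1 (perm x.1).2 x.2.1 x.2.2.1, (hmem x.1 x.2).1⟩, (hmem x.1 x.2).2⟩
  have hΦ : Function.Bijective Φ := by
    refine ⟨fun a b h => ?_, fun g => ?_⟩
    · obtain ⟨e1, e2⟩ := monoEl_injective (hσ := (perm a.1).2) (hσ' := (perm b.1).2) (hc := a.2.2.1)
        (hc' := b.2.2.1) (congrArg (fun g : ↥pairStab => g.1.1) h)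
      have hb : a.1.2 = b.1.2 := by
        have r1 := (hswap a.1).1
        rw [e1, (hswap b.1).1] at r1
        cases h1 : a.1.2 <;> cases h2 : b.1.2 <;> simp [h1, h2, uVec_pts.2.2.1, uVec_pts.2.2.1.symm] at r1 ⊢
      refine Prod.ext (Prod.ext (Subtype.ext ?_) hb) (Subtype.ext e2)
      simp only [perm, hb] at e1
      exact mul_right_cancel e1
    · obtain ⟨⟨m, hu⟩, hu'⟩ := g
      change m • uL' = uL' ∨ m • uL' = -uL' at hu'
      have hu0 : m • uL = uL := hu
      obtain ⟨-, -, hp, hm⟩ := uL'_pts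
      have h0 : m • e8 none = e8 none ∨ m • e8 none = e8 (pt 0) := by
        rcases hu' with e | e
        · left; rw [← hp, co0_add, hu0, e]
        · right; rw [← hp, co0_add, hu0, e, ← sub_eq_add_neg, hm]
      have h00 : m • e8 (pt 0) = e8 (pt 0) ∨ m • e8 (pt 0) = e8 none := by
        rcases hu' with e | e
        · left; rw [← hm, sub_eq_add_neg, co0_add, co0_neg, hu0, e]
        · right; rw [← hm, sub_eq_add_neg, co0_add, co0_neg, hu0, e, neg_neg, hp]
      have hfs : m ∈ frameStab := by
        rcases h0 with e | e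
        · exact ⟨0, by rw [e]; simp⟩
        · obtain ⟨z, hz⟩ := e8_class (pt 0)
          exact ⟨-z, by rw [e, hz]; abel⟩
      obtain ⟨σ, hσ, c, hc, rfl⟩ := mem_frameStab.1 hfs
      have res : ∀ i, i = none ∨ i = pt 0 →
          (σ i = none ∨ σ i = pt 0) ∧ σ i ∉ c := by
        intro i hi
        obtain ⟨j, hj, e⟩ : ∃ j, (j = none ∨ j = pt 0) ∧ monoEl σ hσ c hc • e8 i = e8 j := by
          rcases hi with rfl | rfl
          · rcases h0 with e | e
            · exact ⟨_, Or.inl rfl, e⟩
            · exact ⟨_, Or.inr rfl, e⟩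
          · rcases h00 with e | e
            · exact ⟨_, Or.inr rfl, e⟩
            · exact ⟨_, Or.inl rfl, e⟩
        have hji : σ i = j := by
          rcases mono_e8 σ hσ c hc i with r | r <;> rw [e] at r
          · exact (e8_pm_inj (Or.inl r)).symm
          · exact (e8_pm_inj (Or.inr r)).symm
        refine ⟨hji ▸ hj, fun hin => ?_⟩
        have := congrFun (congrArg (fun a : ↥leechLattice => (a : GolayPt → ℤ)) e) (σ i)
        rw [monoEl_apply] at this
        change signedPerm σ c (Pi.single i 8) (σ i) = (Pi.single j 8 : GolayPt → ℤ) (σ i) at this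
        rw [signedPerm_single, hji, Pi.single_eq_same, Pi.single_eq_same, sgnOf, if_pos (hji ▸ hin)] at this
        norm_num at this
      obtain ⟨rn, rnc⟩ := res none (Or.inl rfl)
      obtain ⟨r0, r0c⟩ := res (pt 0) (Or.inr rfl)
      have hne : σ none ≠ σ (pt 0) := fun e => uVec_pts.2.2.1 (σ.injective e)
      have hcC : c ∈ C := by
        refine ⟨hc, ?_, ?_⟩ <;> rcases rn with e | e <;> rcases r0 with e' | e' <;> simp_all
      by_cases hb : σ none = none
      · have h2 : σ (pt 0) = pt 0 := r0.resolve_left fun e => hne (hb.trans e.symm)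
        refine ⟨((⟨σ, ⟨hσ, hb⟩, h2⟩, false), ⟨c, hcC⟩), Subtype.ext (Subtype.ext ?_)⟩
        simp only [Φ, perm, Bool.false_eq_true, if_false, mul_one]
      · have hb' : σ none = pt 0 := rn.resolve_left hb
        have h2 : σ (pt 0) = none := r0.resolve_right fun e => hne (hb'.trans e.symm)
        have hs : σ * τ⁻¹ ∈ S2 := by
          refine Subgroup.mem_inf.2 ⟨Subgroup.mem_inf.2 ⟨mul_mem hσ (inv_mem hτ), ?_⟩, ?_⟩
          · show σ (τ⁻¹ none) = none
            rw [Equiv.Perm.inv_def, show τ.symm none = pt 0 from τ.symm_apply_eq.2 hτ0.symm, h2]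
          · show σ (τ⁻¹ (pt 0)) = pt 0
            rw [Equiv.Perm.inv_def, show τ.symm (pt 0) = none from τ.symm_apply_eq.2 hτn.symm, hb']
        refine ⟨((⟨σ * τ⁻¹, hs⟩, true), ⟨c, hcC⟩), Subtype.ext (Subtype.ext ?_)⟩
        simp only [Φ, perm, if_true, inv_mul_cancel_right]
  rw [← Nat.card_eq_of_bijective Φ hΦ, Nat.card_prod, Nat.card_prod, M24_stab2_card uVec_pts.2.2.1,
    Nat.card_eq_fintype_card (α := Bool), Fintype.card_bool, Nat.card_coe_set_eq]
  congr 1
  rw [← words_avoid]
  exact ncard_supports_filter (fun m => !m.testBit 23 && !m.testBit 0) C fun s => by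
    have e0 : (mask s).testBit 0 = decide (pt 0 ∈ s) := testBit_mask s (pt 0)
    have e23 : (mask s).testBit 23 = decide ((none : GolayPt) ∈ s) := testBit_mask s none
    simp [C, mem_supports_iff, e0, e23]; tauto

theorem no_normal_two (P : Subgroup ↥stabU) [P.Normal] (hP : IsPGroup 2 ↥P) : P = ⊥ := by
  haveI : Finite ↥Co0 := Nat.finite_of_card_ne_zero (by rw [co0_card]; norm_num)
  haveI := Fact.mk Nat.prime_two
  have hidx : ¬ 2 ∣ Nat.card (↥stabU ⧸ pairStab) := by
    have h := Subgroup.card_eq_card_quotient_mul_card_subgroup pairStab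
    rw [stabU_card, pairStab_card] at h
    have : Nat.card (↥stabU ⧸ pairStab) = 46575 := by omega
    rw [this]; norm_num
  obtain ⟨q, hq⟩ := hP.nonempty_fixed_point_of_prime_not_dvd_card (↥stabU ⧸ pairStab) hidx
  induction q using QuotientGroup.induction_on with
  | H a =>
  have hle : P ≤ pairStab := by
    intro p hp
    have h1 : (⟨a * p * a⁻¹, ‹P.Normal›.conj_mem p hp a⟩ : ↥P) • (QuotientGroup.mk a : ↥stabU ⧸ pairStab) =
        QuotientGroup.mk a := hq _
    change (QuotientGroup.mk (a * p * a⁻¹ * a) : ↥stabU ⧸ pairStab) = QuotientGroup.mk a at h1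
    rw [QuotientGroup.eq] at h1
    have : (a * p * a⁻¹ * a)⁻¹ * a = p⁻¹ := by group
    rw [this] at h1
    simpa using inv_mem h1
  rw [Subgroup.eq_bot_iff_forall]
  intro p hp
  refine Subtype.ext (fixesPairs_eq_one p.2 fun w hw hd => ?_)
  obtain ⟨k, hk1, hk2⟩ := orth_pairs_transitive (v := uL) (w := uL') (w' := w) test_values.1 uL'_pts.1 hw
    uL'_pts.2.1 hd
  have hp' := hle (‹P.Normal›.conj_mem p hp (⟨k, hk1⟩ : ↥stabU)⁻¹)
  have hk : ∀ e : ↥leechLattice, e = uL' ∨ e = -uL' → k • e = w ∨ k • e = -w := by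
    rintro e (rfl | rfl)
    · exact hk2
    · rw [co0_neg]
      rcases hk2 with r | r <;> simp [r]
  change (k⁻¹ * p.1 * k⁻¹⁻¹) • uL' = uL' ∨ (k⁻¹ * p.1 * k⁻¹⁻¹) • uL' = -uL' at hp'
  rw [inv_inv, mul_smul, mul_smul, inv_smul_eq_iff, inv_smul_eq_iff] at hp'
  rw [co0_neg k uL'] at hp'
  rcases hk2 with r | r <;> rw [r] at hp'
  · exact hp'
  · rw [co0_neg, neg_neg] at hp'
    rcases hp' with e | e
    · exact Or.inl (neg_injective e)
    · exact Or.inr (neg_eq_iff_eq_neg.1 e)

end Cfsg.Agent.Leech2
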