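import Cfsg.Agent.Golay.Leech
import Cfsg.Agent.M24Orbits.Data3

/-! An isometry of the lattice that mixes the two parity classes. -/

set_option autoImplicit false
open Cfsg Cfsg.Agent.Golay
open scoped Pointwise

namespace Cfsg.Agent.Leech2

/-- Tetrads of a sextet. -/
def tet (k : Fin 6) : Finset GolayPt := bset (Cfsg.Agent.M24Orbits.sext2b.getD k.val 0)

/-- Which tetrad a point lies in. -/
def tau (p : GolayPt) : Fin 6 :=
  ⟨(Cfsg.Agent.M24Orbits.sext2b.findIdx fun m => m.testBit (idx p)) % 6, Nat.mod_lt _ (by norm_num)⟩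

theorem tau_spec : ∀ (p : GolayPt) (k : Fin 6), p ∈ tet k ↔ tau p = k := by decide +kernel

theorem tet_ok :
    ((∀ k : Fin 6, (tet k).card = 4) ∧
      ∀ k : Fin 6, inC (Cfsg.Agent.M24Orbits.sext2b.getD k.val 0 ^^^ Cfsg.Agent.M24Orbits.sext2b.getD 0 0) = true) ∧
    allB (fun i => (List.range 6).all fun k =>
      pc (encode i &&& Cfsg.Agent.M24Orbits.sext2b.getD k 0) % 2 ==
        pc (encode i &&& Cfsg.Agent.M24Orbits.sext2b.getD 0 0) % 2) 12 0 = true := by decide +kernel

theorem filter_tau (k : Fin 6) : (Finset.univ.filter fun p => tau p = k) = tet k := by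
  ext p; simp [tau_spec p k]

/-- Sum over a tetrad. -/
def tsum (x : GolayPt → ℤ) (k : Fin 6) : ℤ := ∑ p ∈ tet k, x p

/-- The tetrad map. -/
def xiMap (x : GolayPt → ℤ) : GolayPt → ℤ := fun p =>
  if tau p = 0 then -(x p - tsum x (tau p) / 2) else x p - tsum x (tau p) / 2

theorem tsum_affine {x y : GolayPt → ℤ} {m : ℤ} (h : ∀ i, x i = m + 2 * y i) (k : Fin 6) :
    tsum x k = 4 * m + 2 * ∑ p ∈ tet k, y p := by
  rw [tsum, Finset.sum_congr rfl fun p _ => h p, Finset.sum_add_distrib, ← Finset.mul_sum,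
    Finset.sum_const, tet_ok.1.1 k]
  simp

theorem parity_tet {y : GolayPt → ℤ} (hw : red2 y ∈ golayCode) (k : Fin 6) :
    (2 : ℤ) ∣ ∑ p ∈ tet k, y p - ∑ p ∈ tet 0, y p := by
  obtain ⟨i, hi, hie⟩ := inC_eq_encode (inC_of_mem_golayCode hw)
  have hall := allB_spec _ 12 0 tet_ok.2 i (Nat.zero_le _) (by simpa using hi)
  simp only [List.all_eq_true, beq_iff_eq] at hall
  have key : ∀ j : Fin 6, ((∑ p ∈ tet j, y p : ℤ) : ZMod 2) =
      ((pc (encode i &&& Cfsg.Agent.M24Orbits.sext2b.getD j.val 0) : ℕ) : ZMod 2) := by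
    intro j
    rw [← card_bset, bset_and, Finset.inter_comm, hie]
    show _ = (((tet j) ∩ bset (wmask (red2 y))).card : ZMod 2)
    rw [← Finset.filter_mem_eq_inter, Finset.card_filter, Nat.cast_sum, Int.cast_sum]
    refine Finset.sum_congr rfl fun p _ => ?_
    have hb : p ∈ bset (wmask (red2 y)) ↔ red2 y p ≠ 0 := by
      rw [← support₂_wordOf, wordOf_wmask]; simp [support₂]
    by_cases hp : p ∈ bset (wmask (red2 y))
    · rw [if_pos hp, Nat.cast_one]
      exact ((by decide : ∀ z : ZMod 2, z = 0 ∨ z = 1) _).resolve_left (hb.1 hp)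
    · rw [if_neg hp, Nat.cast_zero]
      exact not_not.1 (fun h => hp (hb.2 h))
  have e := hall k.val (List.mem_range.2 k.2)
  have hz : ((∑ p ∈ tet k, y p : ℤ) : ZMod 2) = ((∑ p ∈ tet 0, y p : ℤ) : ZMod 2) := by
    rw [key, key, ZMod.natCast_eq_natCast_iff']
    exact e
  have h2 := (ZMod.intCast_eq_intCast_iff_dvd_sub _ _ 2).1 hz.symm
  simpa using h2

theorem sum_by_tet (f : GolayPt → ℤ) : ∑ p, f p = ∑ k : Fin 6, ∑ p ∈ tet k, f p := by
  rw [← Finset.sum_fiberwise Finset.univ tau f]
  exact Finset.sum_congr rfl fun k _ => by rw [filter_tau]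

theorem xi_mem {x : GolayPt → ℤ} (hx : x ∈ leechLattice) : xiMap x ∈ leechLattice := by
  rw [mem_leech_iff] at hx ⊢
  obtain ⟨m, y, hy, hw, hs⟩ := hx
  set Y := fun k => ∑ p ∈ tet k, y p with hY
  set π := Y 0 with hπ
  choose e he using fun k => parity_tet hw k
  have he' : ∀ k, Y k = π + 2 * e k := fun k => by
    have := he k
    show ∑ p ∈ tet k, y p = ∑ p ∈ tet 0, y p + 2 * e k
    omega
  have hT : ∀ k, tsum x k / 2 = 2 * m + π + 2 * e k := fun k => by
    have h1 := tsum_affine hy k
    have h2 := he' k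
    simp only [hY] at h2
    omega
  refine ⟨-m - π, fun p => if tau p = 0 then m + π - y p + e (tau p) else y p - e (tau p), fun p => ?_, ?_, ?_⟩
  · simp only [xiMap, hT]
    split_ifs <;> rw [hy p] <;> ring
  · set c : Fin 6 → ZMod 2 := fun k => (e k : ZMod 2) + if k = 0 then ((m + π : ℤ) : ZMod 2) else 0 with hc
    have hcsum : ∑ k, c k = 0 := by
      have hsum : ∑ i, x i = 24 * m + 2 * ∑ k, Y k := by rw [sum_affine hy, sum_by_tet y]
      have hYs : ∑ k, Y k = 6 * π + 2 * ∑ k, e k := by
        rw [Finset.sum_congr rfl fun k _ => he' k, Finset.sum_add_distrib, ← Finset.mul_sum, Finset.sum_const]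
        simp
      have hd : (2 : ℤ) ∣ ∑ k, e k + (m + π) := by omega
      have := (ZMod.intCast_zmod_eq_zero_iff_dvd _ 2).2 hd
      rw [Int.cast_add, Int.cast_sum] at this
      rw [hc, Finset.sum_add_distrib, Finset.sum_ite_eq']
      simpa using this
    have hred : red2 (fun p => if tau p = 0 then m + π - y p + e (tau p) else y p - e (tau p)) =
        red2 y + ∑ k, c k • (wordOf (Cfsg.Agent.M24Orbits.sext2b.getD k.val 0) +
          wordOf (Cfsg.Agent.M24Orbits.sext2b.getD 0 0)) := by
      funext p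
      have hwd : ∀ k : Fin 6, wordOf (Cfsg.Agent.M24Orbits.sext2b.getD k.val 0) p =
          if tau p = k then 1 else 0 := fun k => by
        have := tau_spec p k
        rw [tet, mem_bset] at this
        unfold wordOf; exact if_congr this rfl rfl
      simp only [red2, Pi.add_apply, Finset.sum_apply, Pi.smul_apply, smul_eq_mul, mul_add,
        Finset.sum_add_distrib, ← Finset.sum_mul, hcsum, zero_mul, add_zero, hwd, mul_ite, mul_one,
        mul_zero, Finset.sum_ite_eq, Finset.mem_univ, if_true]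
      simp only [hc]
      split_ifs <;> push_cast <;> simp only [CharTwo.sub_eq_add] <;> ring
    rw [hred]
    refine add_mem hw (Submodule.sum_mem _ fun k _ => Submodule.smul_mem _ _ ?_)
    rw [← wordOf_xor]
    exact wordOf_mem (tet_ok.1.2 k)
  · have hsum : ∑ p, xiMap x p = -(∑ p, x p) + 2 * tsum x 0 := by
      rw [sum_by_tet (xiMap x), sum_by_tet x]
      have hk : ∀ k, ∑ p ∈ tet k, xiMap x p = -tsum x k + if k = 0 then 2 * tsum x k else 0 := by
        intro k
        have h1 := tsum_affine hy k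
        rw [Finset.sum_congr rfl (fun p hp => by
          show xiMap x p = if k = 0 then -(x p - tsum x k / 2) else x p - tsum x k / 2
          rw [xiMap, (tau_spec p k).1 hp])]
        by_cases h0 : k = 0
        · simp only [h0, if_true]
          rw [Finset.sum_neg_distrib, Finset.sum_sub_distrib, Finset.sum_const, tet_ok.1.1, ← tsum]
          have := tsum_affine hy 0
          simp only [nsmul_eq_mul]
          omega
        · simp only [h0, if_false, add_zero]
          rw [Finset.sum_sub_distrib, Finset.sum_const, tet_ok.1.1, ← tsum]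
          simp only [nsmul_eq_mul]
          omega
      rw [Finset.sum_congr rfl fun k _ => hk k, Finset.sum_add_distrib, Finset.sum_ite_eq',
        Finset.sum_neg_distrib]
      simp [tsum]
    rw [hsum]
    have h0 := tsum_affine hy 0
    have : ∑ p ∈ tet 0, y p = π := rfl
    omega

theorem tsum_even {x : GolayPt → ℤ} (hx : x ∈ leechLattice) (k : Fin 6) :
    tsum x k = 2 * (tsum x k / 2) := by
  obtain ⟨m, y, hy, -, -⟩ := mem_leech_iff.1 hx
  have := tsum_affine hy k
  omega

theorem tsum_xi {x : GolayPt → ℤ} (hx : x ∈ leechLattice) (k : Fin 6) :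
    tsum (xiMap x) k = if k = 0 then tsum x k else -tsum x k := by
  have h := tsum_even hx k
  unfold tsum at *
  rw [Finset.sum_congr rfl (fun p hp => by
    show xiMap x p = if k = 0 then -(x p - tsum x k / 2) else x p - tsum x k / 2
    rw [xiMap, (tau_spec p k).1 hp])]
  by_cases h0 : k = 0
  · simp only [h0, if_true] at h ⊢
    rw [Finset.sum_neg_distrib, Finset.sum_sub_distrib, Finset.sum_const, tet_ok.1.1, tsum, nsmul_eq_mul]
    omega
  · simp only [h0, if_false] at h ⊢
    rw [Finset.sum_sub_distrib, Finset.sum_const, tet_ok.1.1, tsum, nsmul_eq_mul]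
    omega

theorem xi_xi {x : GolayPt → ℤ} (hx : x ∈ leechLattice) : xiMap (xiMap x) = x := by
  funext p
  have h := tsum_xi hx (tau p)
  have he := tsum_even hx (tau p)
  by_cases h0 : tau p = 0
  · simp only [xiMap, h0, if_true] at h he ⊢
    omega
  · simp only [xiMap, h0, if_false] at h he ⊢
    omega

theorem xi_add {x x' : GolayPt → ℤ} (hx : x ∈ leechLattice) (hx' : x' ∈ leechLattice) :
    xiMap (x + x') = xiMap x + xiMap x' := by
  funext p
  have e : tsum (x + x') (tau p) = tsum x (tau p) + tsum x' (tau p) := Finset.sum_add_distrib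
  have h1 := tsum_even hx (tau p)
  have h2 := tsum_even hx' (tau p)
  simp only [xiMap, Pi.add_apply]
  split_ifs <;> omega

theorem xi_norm {x : GolayPt → ℤ} (hx : x ∈ leechLattice) : sqNorm (xiMap x) = sqNorm x := by
  rw [sqNorm, sqNorm, sum_by_tet, sum_by_tet fun p => x p ^ 2]
  refine Finset.sum_congr rfl fun k _ => ?_
  rw [Finset.sum_congr rfl (fun p hp => by
    show xiMap x p ^ 2 = x p ^ 2 + (tsum x k / 2) ^ 2 - 2 * (tsum x k / 2) * x p
    rw [xiMap, (tau_spec p k).1 hp]
    split_ifs <;> ring), Finset.sum_sub_distrib, Finset.sum_add_distrib, Finset.sum_const, tet_ok.1.1,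
    ← Finset.mul_sum, ← tsum]
  rw [nsmul_eq_mul]
  have h := tsum_even hx k
  unfold tsum at *
  push_cast
  linear_combination (-2 * ((∑ p ∈ tet k, x p) / 2)) * h

end Cfsg.Agent.Leech2
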